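import Mathlib

/-!
# Rational matrix groups of degree 23
-/

set_option autoImplicit false

namespace CfsgLib.Feit23

open Polynomial Matrix Module

theorem cyc_dvd {n : ℕ} (M : Matrix (Fin n) (Fin n) ℚ) {p k : ℕ} (hp : p.Prime)
    (h : M ^ p ^ (k + 1) = 1) (h1 : M ^ p ^ k ≠ 1) : cyclotomic (p ^ (k + 1)) ℚ ∣ M.charpoly := by
  have := Fact.mk hp
  refine dvd_trans ?_ (Matrix.minpoly_dvd_charpoly M)
  by_contra hc
  have hi := cyclotomic.irreducible_rat (pow_pos hp.pos (k + 1))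
  have hd : minpoly ℚ M ∣ cyclotomic (p ^ (k + 1)) ℚ * (X ^ p ^ k - 1) := by
    rw [cyclotomic_prime_pow_mul_X_pow_sub_one]
    exact minpoly.dvd _ _ (by simp [h])
  have := minpoly.dvd_iff.1 ((hi.coprime_iff_not_dvd.2 hc).symm.dvd_of_dvd_mul_left hd)
  exact h1 (by simpa [sub_eq_zero] using this)

theorem totient_le {n : ℕ} (M : Matrix (Fin n) (Fin n) ℚ) {p k : ℕ} (hp : p.Prime)
    (h : M ^ p ^ (k + 1) = 1) (h1 : M ^ p ^ k ≠ 1) : p ^ k * (p - 1) ≤ n := by
  have := natDegree_le_of_dvd (cyc_dvd M hp h h1) M.charpoly_monic.ne_zero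
  rwa [natDegree_cyclotomic, Nat.totient_prime_pow_succ hp, Matrix.charpoly_natDegree_eq_dim,
    Fintype.card_fin] at this

theorem charpoly23 {M : Matrix (Fin 23) (Fin 23) ℚ} (h : M ^ 23 = 1) (h1 : M ≠ 1) :
    M.charpoly = X ^ 23 - 1 := by
  have : Fact (Nat.Prime 23) := ⟨by norm_num⟩
  obtain ⟨q, hq⟩ := cyc_dvd M (p := 23) (k := 0) (by norm_num) (by simpa using h) (by simpa using h1)
  rw [zero_add, pow_one] at hq
  have hm : q.Monic := (cyclotomic.monic 23 ℚ).of_mul_monic_left (hq ▸ M.charpoly_monic)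
  have hd : q.natDegree = 1 := by
    have := congrArg natDegree hq
    rw [(cyclotomic.monic 23 ℚ).natDegree_mul hm, natDegree_cyclotomic,
      Matrix.charpoly_natDegree_eq_dim, Nat.totient_prime (by norm_num), Fintype.card_fin] at this
    omega
  have h2 : M.det = 1 := by
    have := congrArg det h
    rw [det_pow, det_one] at this
    exact (pow_eq_one_iff_of_ne_zero (by norm_num)).1 this |>.resolve_right fun h =>
      absurd h.2 (by decide)
  have h3 := M.det_eq_sign_charpoly_coeff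
  rw [h2, hq, mul_coeff_zero, cyclotomic_coeff_zero ℚ (by norm_num), Fintype.card_fin] at h3
  rw [hq, hm.eq_X_add_C hd, show q.coeff 0 = -1 by linarith, ← cyclotomic_prime_mul_X_sub_one ℚ 23]
  simp [sub_eq_add_neg]

theorem trace23 {M : Matrix (Fin 23) (Fin 23) ℚ} (h : M ^ 23 = 1) (h1 : M ≠ 1) : M.trace = 0 := by
  rw [trace_eq_neg_charpoly_coeff, charpoly23 h h1]
  simp [coeff_X_pow, coeff_one]

theorem fixed23 {M : Matrix (Fin 23) (Fin 23) ℚ} (h : M ^ 23 = 1) (h1 : M ≠ 1) {x y : Fin 23 → ℚ}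
    (hx : M *ᵥ x = x) (hy : M *ᵥ y = y) (h0 : x ≠ 0) : ∃ c : ℚ, c • x = y := by
  have h2 := LinearMap.finrank_eigenspace_le (toLin' M) 1
  rw [charpoly_toLin', charpoly23 h h1] at h2
  have h3 := h2.trans (rootMultiplicity_le_one_of_separable
    (by simpa using separable_X_pow_sub_C (n := 23) (1 : ℚ) (by norm_num) one_ne_zero) 1)
  have hx' : x ∈ End.eigenspace (toLin' M) 1 := by simpa [End.mem_eigenspace_iff] using hx
  have hy' : y ∈ End.eigenspace (toLin' M) 1 := by simpa [End.mem_eigenspace_iff] using hy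
  have h4 : (⟨x, hx'⟩ : End.eigenspace (toLin' M) 1) ≠ 0 := fun e => h0 (congrArg Subtype.val e)
  have : Nontrivial (End.eigenspace (toLin' M) 1) := nontrivial_of_ne _ _ h4
  obtain ⟨c, hc⟩ := (finrank_eq_one_iff_of_nonzero' _ h4).1
    (le_antisymm h3 (finrank_pos (R := ℚ))) ⟨y, hy'⟩
  exact ⟨c, congrArg Subtype.val hc⟩

variable {G : Type*} [Group G] (r : G →* Matrix (Fin 23) (Fin 23) ℚ)

theorem prime_le [Finite G] (hr : Function.Injective r) {p : ℕ} (hp : p.Prime) (h : p ∣ Nat.card G) :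
    p ≤ 24 := by
  have := Fact.mk hp
  obtain ⟨g, hg⟩ := exists_prime_orderOf_dvd_card' p h
  have := totient_le (r g) (k := 0) hp (by rw [← map_pow, zero_add, pow_one, ← hg, pow_orderOf_eq_one, map_one])
    (by
      rw [pow_zero, pow_one, ← map_one r, hr.ne_iff]
      rintro rfl
      exact hp.one_lt.ne (by simpa using hg))
  simp at this
  omega

theorem not_sq_dvd [Finite G] (hr : Function.Injective r) : ¬ 23 ^ 2 ∣ Nat.card G := by
  classical
  intro h
  have : Fact (Nat.Prime 23) := ⟨by norm_num⟩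
  obtain ⟨P, hP⟩ := Sylow.exists_subgroup_card_pow_prime 23 h
  have := Fintype.ofFinite P
  let ρ : Representation ℚ P (Fin 23 → ℚ) :=
    (toLinAlgEquiv' (R := ℚ) (n := Fin 23)).toMonoidHom.comp (r.comp P.subtype)
  have hc : ∀ g : P, ρ.character g = (r g).trace := fun g => trace_toLin'_eq _
  have : Invertible (Nat.card P : ℚ) := invertibleOfNonzero (by simp [hP])
  have h1 := ρ.card_inv_mul_sum_char_eq_finrank
  rw [Finset.sum_eq_single 1 (fun g _ hg => ?_) (by simp), hc, hP] at h1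
  · simp only [OneMemClass.coe_one, map_one, trace_one, Fintype.card_fin] at h1
    have h2 : (23 : ℚ) * finrank ℚ ρ.invariants = 1 := by rw [← h1]; norm_num
    have h3 : 23 * finrank ℚ ρ.invariants = 1 := by exact_mod_cast h2
    omega
  · rw [hc]
    refine trace23 ?_ (by rw [← map_one r, hr.ne_iff]; simpa using hg)
    by_contra h2
    have := totient_le (r g) (p := 23) (k := 1) (by norm_num) (by
      rw [← map_pow, ← Subgroup.coe_pow, ← hP, pow_card_eq_one', OneMemClass.coe_one, map_one])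
      (by simpa using h2)
    omega

theorem det_sub {g A : Matrix (Fin 23) (Fin 23) ℚ} (hA : A.det ≠ 0) (h : gᵀ * A * g = A) :
    (g - g.det • 1).det = 0 := by
  have h1 : g.det * g.det = 1 := by
    have := congrArg det h
    rw [det_mul, det_mul, det_transpose] at this
    exact mul_right_cancel₀ hA (by linear_combination this)
  have h2 : (g - g.det • 1)ᵀ * A * g = (-g.det) • (A * (g - g.det • 1)) := by
    rw [transpose_sub, sub_mul, sub_mul, h, mul_sub, smul_sub]
    simp [smul_smul, h1]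
    abel
  have h3 := congrArg det h2
  rw [det_mul, det_mul, det_transpose, det_smul, det_mul, Fintype.card_fin] at h3
  have h4 : (-g.det) ^ 23 = -g.det := by
    rcases mul_self_eq_one_iff.1 h1 with e | e <;> rw [e] <;> norm_num
  have h5 : g.det ≠ 0 := fun e => by simp [e] at h1
  rw [h4] at h3
  have : (g - g.det • 1).det * (2 * A.det * g.det) = 0 := by linear_combination h3
  simpa [hA, h5] using this

theorem schur {A : Matrix (Fin 23) (Fin 23) ℚ} (hA : A.det ≠ 0) (h : ∀ g, (r g)ᵀ * A * r g = A)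
    (hirr : ∀ W : Submodule ℚ (Fin 23 → ℚ), (∀ g, ∀ w ∈ W, r g *ᵥ w ∈ W) → W = ⊥ ∨ W = ⊤)
    {φ : Matrix (Fin 23) (Fin 23) ℚ} (hφ : ∀ g, r g * φ = φ * r g) : ∃ c : ℚ, φ = c • 1 := by
  let D := Subalgebra.centralizer ℚ (Set.range fun g => (toLin' (r g) : End ℚ (Fin 23 → ℚ)))
  have hD : ∀ a : D, ∀ g w, r g *ᵥ (a.1 w) = a.1 (r g *ᵥ w) := fun a g w =>
    LinearMap.congr_fun (a.2 _ ⟨g, rfl⟩) w
  letI : DivisionRing D := DivisionRing.ofIsUnitOrEqZero fun a => by
    rcases hirr (LinearMap.ker a.1) (fun g w hw => by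
      rw [LinearMap.mem_ker] at hw ⊢; rw [← hD, hw, mulVec_zero]) with e | e
    · left
      obtain ⟨u, hu⟩ := (LinearMap.isUnit_iff_ker_eq_bot a.1).2 e
      refine ⟨⟨a, ⟨↑u⁻¹, fun b hb => ?_⟩, Subtype.ext ?_, Subtype.ext ?_⟩, rfl⟩
      · exact (Commute.units_inv_right (hu ▸ a.2 b hb :)).eq
      · simp [← hu]
      · simp [← hu]
    · exact Or.inr (Subtype.ext (LinearMap.ker_eq_top.1 e))
  have : IsScalarTower ℚ D (Fin 23 → ℚ) := ⟨fun _ _ _ => rfl⟩
  have h1 := finrank_mul_finrank ℚ D (Fin 23 → ℚ)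
  rw [finrank_fin_fun] at h1
  rcases (Nat.dvd_prime (by norm_num)).1 (Dvd.intro _ h1) with e | e
  · obtain ⟨c, hc⟩ := (finrank_eq_one_iff_of_nonzero' (1 : D) one_ne_zero).1 e
      ⟨toLin' φ, by rintro _ ⟨g, rfl⟩; simp only [End.mul_eq_comp, ← toLin'_mul, hφ]⟩
    exact ⟨c, toLin'.injective (by simpa [End.one_eq_id] using (congrArg Subtype.val hc).symm)⟩
  · exfalso
    have e1 : finrank D (Fin 23 → ℚ) = 1 := by rw [e] at h1; omega
    have hs : ∀ g w, r g *ᵥ w = (r g).det • w := fun g w => by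
      obtain ⟨x, hx, h0⟩ := exists_mulVec_eq_zero_iff.2 (det_sub hA (h g))
      obtain ⟨a, rfl⟩ := (finrank_eq_one_iff_of_nonzero' x hx).1 e1 w
      rw [sub_mulVec, sub_eq_zero, smul_mulVec, one_mulVec] at h0
      show r g *ᵥ (a.1 x) = _ • a.1 x
      rw [hD, h0, map_smul]
    rcases hirr (ℚ ∙ Pi.single 0 1) (fun g w hw => hs g w ▸ Submodule.smul_mem _ _ hw) with e2 | e2
    · simpa using congrFun (Submodule.span_singleton_eq_bot.1 e2) 0
    · obtain ⟨c, hc⟩ := Submodule.mem_span_singleton.1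
        (e2 ▸ Submodule.mem_top : (Pi.single 1 1 : Fin 23 → ℚ) ∈ ℚ ∙ Pi.single 0 1)
      simpa using congrFun hc 1

end CfsgLib.Feit23
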