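import Mathlib
import Cfsg.Agent.Lib.Feit23.Rat

/-!
# Invariant integral lattices of rank 23
-/

set_option autoImplicit false

namespace CfsgLib.Feit23

open Matrix Module

abbrev L : Type := Fin 23 → ℤ

/-- a faithful rationally irreducible action on a positive definite integral lattice of rank 23 -/
structure Mod (G : Type*) [Group G] where
  ρ : Representation ℤ G L
  β : LinearMap.BilinForm ℤ L
  symm : ∀ x y, β x y = β y x
  pos : ∀ x, x ≠ 0 → 0 < β x x
  inv : ∀ g x y, β (ρ g x) (ρ g y) = β x y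
  inj : Function.Injective ρ
  irr : ∀ K : Submodule ℤ L, (∀ g, ∀ x ∈ K, ρ g x ∈ K) → K ≠ ⊥ → ∃ n : ℤ, n ≠ 0 ∧ ∀ x, n • x ∈ K

variable {G : Type*} [Group G]

theorem exists_sub {V : Type*} [AddCommGroup V] (r : Representation ℤ G V) (K : Submodule ℤ V)
    (hK : ∀ g, ∀ x ∈ K, r g x ∈ K) [Module.Free ℤ K] [Module.Finite ℤ K] (h : finrank ℤ K = 23) :
    ∃ (P : L →ₗ[ℤ] V) (ρ : Representation ℤ G L), Function.Injective P ∧ LinearMap.range P = K ∧
      ∀ g x, P (ρ g x) = r g (P x) := by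
  let e : L ≃ₗ[ℤ] K := LinearEquiv.ofFinrankEq _ _ (by rw [h, finrank_fin_fun])
  refine ⟨K.subtype ∘ₗ e.toLinearMap,
    e.symm.conjRingEquiv.toMonoidHom.comp (r.subrepresentation K hK),
    K.injective_subtype.comp e.injective, by simp [LinearMap.range_comp], fun g x => ?_⟩
  simp [Representation.subrepresentation]

theorem natAbs_det {P : L →ₗ[ℤ] L} (h : Function.Injective P) :
    (LinearMap.toMatrix' P).det.natAbs = Nat.card (L ⧸ LinearMap.range P) := by
  rw [← Submodule.natAbs_det_equiv _ (LinearEquiv.ofInjective P h), LinearMap.det_toMatrix']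
  rfl

/-- positive definite invariant form by averaging -/
theorem exists_mod [Finite G] (ρ : Representation ℤ G L) (inj : Function.Injective ρ)
    (irr : ∀ K : Submodule ℤ L, (∀ g, ∀ x ∈ K, ρ g x ∈ K) → K ≠ ⊥ → ∃ n : ℤ, n ≠ 0 ∧ ∀ x, n • x ∈ K) :
    Nonempty (Mod G) := by
  have := Fintype.ofFinite G
  let β : LinearMap.BilinForm ℤ L := ∑ g, (toBilin' 1).comp (ρ g) (ρ g)
  have hβ : ∀ x y, β x y = ∑ g, ρ g x ⬝ᵥ ρ g y := fun x y => by
    simp [β, LinearMap.sum_apply, toBilin'_apply']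
  refine ⟨⟨ρ, β, fun x y => by simp only [hβ, dotProduct_comm], fun x hx => ?_, fun g x y => ?_, inj, irr⟩⟩
  · rw [hβ]
    have h0 : ∀ y : L, 0 ≤ y ⬝ᵥ y := fun y => Finset.sum_nonneg fun i _ => mul_self_nonneg _
    refine Finset.sum_pos' (fun g _ => h0 _) ⟨1, Finset.mem_univ _, ?_⟩
    simpa using lt_of_le_of_ne (h0 _) (fun e => hx (dotProduct_self_eq_zero.1 e.symm))
  · rw [hβ, hβ x, ← Equiv.sum_comp (Equiv.mulRight g) fun g => ρ g x ⬝ᵥ ρ g y]
    simp

theorem clear (w : Fin 23 → ℚ) : ∃ n : ℤ, n ≠ 0 ∧ ∃ x : L, (fun i => (x i : ℚ)) = n • w := by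
  obtain ⟨d, hd⟩ := IsLocalization.exist_integer_multiples_of_finite (nonZeroDivisors ℤ) w
  choose y hy using hd
  exact ⟨d, nonZeroDivisors.coe_ne_zero d, y, funext fun i => hy i⟩

theorem mod_of_rat [Finite G] (r : G →* Matrix (Fin 23) (Fin 23) ℚ) (hr : Function.Injective r)
    (hirr : ∀ W : Submodule ℚ (Fin 23 → ℚ), (∀ g, ∀ w ∈ W, r g *ᵥ w ∈ W) → W = ⊥ ∨ W = ⊤) :
    Nonempty (Mod G) := by
  let r' : Representation ℤ G (Fin 23 → ℚ) :=
    { toFun g := (toLin' (r g)).restrictScalars ℤ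
      map_one' := by ext; simp
      map_mul' g h := by ext; simp }
  have hr' : ∀ g x, r' g x = r g *ᵥ x := fun _ _ => rfl
  let S : Set (Fin 23 → ℚ) := Set.range fun p : G × Fin 23 => r p.1 *ᵥ Pi.single p.2 1
  have hS : ∀ W : Submodule ℚ (Fin 23 → ℚ), S ⊆ W → W = ⊤ := fun W h => by
    rw [eq_top_iff, ← (Pi.basisFun ℚ (Fin 23)).span_eq, Submodule.span_le]
    rintro _ ⟨i, rfl⟩
    have := h ⟨(1, i), rfl⟩
    simp only [map_one, one_mulVec] at this
    simpa using this
  have : (Submodule.span ℤ S).IsLattice ℚ :=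
    ⟨Submodule.fg_span (Set.finite_range _), hS _ (Submodule.subset_span.trans Submodule.subset_span)⟩
  obtain ⟨P, ρ, hP, hK, hρ⟩ := exists_sub r' (Submodule.span ℤ S) (fun g x hx => by
    refine Submodule.span_induction ?_ (by simp) (fun a b _ _ ha hb => by
      rw [map_add]; exact add_mem ha hb) (fun a b _ hb => by
      rw [map_smul]; exact Submodule.smul_mem _ _ hb) hx
    rintro _ ⟨⟨h, i⟩, rfl⟩
    exact Submodule.subset_span ⟨(g * h, i), by simp only [hr', mulVec_mulVec, map_mul]⟩)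
    (by rw [Submodule.IsLattice.finrank_of_pi ℚ, Fintype.card_fin])
  refine exists_mod ρ (fun g h e => hr (toLin'.injective ?_)) fun K hK' h0 => ?_
  · refine LinearMap.ext_on (hS _ Submodule.subset_span) fun x hx => ?_
    obtain ⟨y, rfl⟩ : x ∈ LinearMap.range P := hK ▸ Submodule.subset_span hx
    exact (hρ g y).symm.trans (e ▸ hρ h y)
  · have htop : Submodule.span ℚ (P '' K) = ⊤ := by
      refine (hirr _ fun g w hw => ?_).resolve_left fun e => h0 ?_
      · refine Submodule.span_induction ?_ (by simp) (fun a b _ _ ha hb => by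
          rw [mulVec_add]; exact add_mem ha hb) (fun a b _ hb => by
          rw [mulVec_smul]; exact Submodule.smul_mem _ _ hb) hw
        rintro _ ⟨x, hx, rfl⟩
        exact Submodule.subset_span ⟨_, hK' g x hx, hρ g x⟩
      · rw [Submodule.span_eq_bot] at e
        exact (Submodule.eq_bot_iff _).2 fun x hx => hP (by simpa using e _ ⟨x, hx, rfl⟩)
    have h1 : ∀ x : L, ∃ n : ℤ, n ≠ 0 ∧ n • x ∈ K := fun x => by
      obtain ⟨t, ht⟩ := multiple_mem_span_of_mem_localization_span (nonZeroDivisors ℤ) ℚ (P '' K) (P x)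
        (htop ▸ Submodule.mem_top)
      rw [← Submodule.map_coe, Submodule.span_eq] at ht
      obtain ⟨y, hy, e⟩ := ht
      exact ⟨t, nonZeroDivisors.coe_ne_zero t, by rwa [← hP (e.trans (map_smul P _ x).symm)]⟩
    choose n hn0 hn using h1
    refine ⟨∏ i, n (Pi.single i 1), Finset.prod_ne_zero_iff.2 fun i _ => hn0 _, fun x => ?_⟩
    rw [pi_eq_sum_univ' x, Finset.smul_sum]
    refine Submodule.sum_mem _ fun i _ => ?_
    obtain ⟨c, hc⟩ := Finset.dvd_prod_of_mem (fun i => n (Pi.single i 1)) (Finset.mem_univ i)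
    rw [hc, smul_comm, mul_comm, mul_smul]
    exact K.smul_mem _ (K.smul_mem _ (hn _))

namespace Mod

variable (M : Mod G)

/-- the discriminant -/
noncomputable def disc : ℕ := (LinearMap.BilinForm.toMatrix' M.β).det.natAbs

theorem det_ne : (LinearMap.BilinForm.toMatrix' M.β).det ≠ 0 := fun e => by
  obtain ⟨x, hx, h⟩ := exists_mulVec_eq_zero_iff.2 e
  have := M.pos x hx
  rw [← toBilin'_toMatrix' M.β, toBilin'_apply', h] at this
  simp at this

theorem sub (K : Submodule ℤ L) (hK : ∀ g, ∀ x ∈ K, M.ρ g x ∈ K) {m : ℕ} (hm : 0 < m)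
    (h1 : ∀ x, (m : ℤ) • x ∈ K) (h2 : ∀ x ∈ K, ∀ y ∈ K, (m : ℤ) ∣ M.β x y) :
    ∃ M' : Mod G, M'.disc * m ^ 23 = Nat.card (L ⧸ K) ^ 2 * M.disc := by
  have hm' : (m : ℤ) ≠ 0 := by omega
  have hr : finrank ℤ K = 23 := le_antisymm (K.finrank_le.trans (finrank_fin_fun ℤ).le) (by
    refine (finrank_fin_fun ℤ).ge.trans (LinearMap.finrank_le_finrank_of_injective
      (f := LinearMap.codRestrict K ((m : ℤ) • LinearMap.id) h1) fun x y e => ?_)
    exact smul_right_injective _ hm' (congrArg Subtype.val e))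
  obtain ⟨P, ρ, hP, rfl, hρ⟩ := exists_sub M.ρ K hK hr
  let A := LinearMap.BilinForm.toMatrix' (M.β.comp P P)
  let A' : Matrix (Fin 23) (Fin 23) ℤ := fun i j => A i j / m
  have hA : (m : ℤ) • A' = A := by
    ext i j
    exact Int.mul_ediv_cancel' (by
      simp only [A, LinearMap.BilinForm.toMatrix'_apply]
      exact h2 _ ⟨_, rfl⟩ _ ⟨_, rfl⟩)
  have hβ : ∀ x y, m * toBilin' A' x y = M.β (P x) (P y) := fun x y => by
    have := congrArg (fun B => toBilin' B x y) hA
    simpa only [A, toBilin'_toMatrix', map_smul, LinearMap.smul_apply, smul_eq_mul,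
      LinearMap.BilinForm.comp_apply] using this
  refine ⟨⟨ρ, toBilin' A', fun x y => mul_left_cancel₀ hm' (by rw [hβ, hβ, M.symm]), fun x hx => ?_,
    fun g x y => mul_left_cancel₀ hm' (by rw [hβ, hβ, hρ, hρ, M.inv]), fun g h e => M.inj ?_,
    fun K' hK' h0 => ?_⟩, ?_⟩
  · have := M.pos (P x) fun e => hx (hP (by simpa using e))
    rw [← hβ] at this
    exact (mul_pos_iff_of_pos_left (by omega)).1 this
  · refine LinearMap.ext fun x => smul_right_injective _ hm' ?_
    obtain ⟨y, hy⟩ := h1 x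
    simp only [← map_smul, ← hy, ← hρ, e]
  · obtain ⟨n, hn, h⟩ := M.irr (K'.map P) (by
      rintro g _ ⟨x, hx, rfl⟩
      exact ⟨_, hK' g x hx, hρ g x⟩) (fun e => h0 ((Submodule.eq_bot_iff _).2 fun x hx =>
        hP (by simpa using (Submodule.eq_bot_iff _).1 e _ ⟨x, hx, rfl⟩)))
    refine ⟨n, hn, fun x => ?_⟩
    obtain ⟨y, hy, e⟩ := h (P x)
    rwa [← hP (e.trans (map_smul P _ x).symm)]
  · have := congrArg (fun B => (det B).natAbs) hA
    simp only [A, LinearMap.BilinForm.toMatrix'_comp, det_smul, det_mul, det_transpose,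
      Int.natAbs_mul, natAbs_det hP, Fintype.card_fin, Int.natAbs_pow, Int.natAbs_natCast] at this
    simp only [disc, LinearMap.BilinForm.toMatrix'_toBilin']
    linarith

/-- consequence of minimal discriminant -/
def Min : Prop := ∀ (K : Submodule ℤ L) (m : ℕ), (∀ g, ∀ x ∈ K, M.ρ g x ∈ K) → 0 < m →
  (∀ x, (m : ℤ) • x ∈ K) → (∀ x ∈ K, ∀ y ∈ K, (m : ℤ) ∣ M.β x y) → m ^ 23 ≤ Nat.card (L ⧸ K) ^ 2

theorem exists_min (M₀ : Mod G) : ∃ M : Mod G, M.Min := by
  obtain ⟨M, -, hM⟩ := (measure disc).wf.has_min Set.univ ⟨M₀, trivial⟩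
  refine ⟨M, fun K m hK hm h1 h2 => ?_⟩
  obtain ⟨M', e⟩ := M.sub K hK hm h1 h2
  have h3 : M.disc ≤ M'.disc := not_lt.1 (hM M' trivial)
  have h4 : 0 < M.disc := Int.natAbs_pos.2 M.det_ne
  exact Nat.le_of_mul_le_mul_right (by nlinarith [Nat.mul_le_mul_right (m ^ 23) h3]) h4

variable (K : Type*) [CommRing K]

/-- matrices over `K` -/
noncomputable def mat : G →* Matrix (Fin 23) (Fin 23) K :=
  (Int.castRingHom K).mapMatrix.toMonoidHom.comp
    ((LinearMap.toMatrixAlgEquiv' (R := ℤ) (n := Fin 23)).toMonoidHom.comp M.ρ)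

/-- Gram matrix over `K` -/
noncomputable def gram : Matrix (Fin 23) (Fin 23) K :=
  (LinearMap.BilinForm.toMatrix' M.β).map (Int.castRingHom K)

/-- reduction of vectors -/
def red (x : L) : Fin 23 → K := Int.castRingHom K ∘ x

theorem mat_eq (g : G) : M.mat K g = (LinearMap.toMatrix' (M.ρ g)).map (Int.castRingHom K) := rfl

theorem mat_red (g : G) (x : L) : M.mat K g *ᵥ red K x = red K (M.ρ g x) := funext fun i => by
  rw [mat_eq, red, ← RingHom.map_mulVec, LinearMap.toMatrix'_mulVec]; rfl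

theorem gram_red (x y : L) : red K x ⬝ᵥ M.gram K *ᵥ red K y = (M.β x y : K) := by
  conv_rhs => rw [← toBilin'_toMatrix' M.β, toBilin'_apply']
  rw [← eq_intCast (Int.castRingHom K), RingHom.map_dotProduct]
  congr 1
  exact funext fun i => (RingHom.map_mulVec _ _ _ i).symm

theorem mat_gram (g : G) : (M.mat K g)ᵀ * M.gram K * M.mat K g = M.gram K := by
  have : M.β.comp (M.ρ g) (M.ρ g) = M.β := LinearMap.ext₂ fun x y => M.inv g x y
  have h := congrArg LinearMap.BilinForm.toMatrix' this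
  rw [LinearMap.BilinForm.toMatrix'_comp] at h
  rw [mat_eq, gram, ← transpose_map, ← Matrix.map_mul, ← Matrix.map_mul, h]

theorem red_inj : Function.Injective (red ℚ) := fun _ _ e =>
  funext fun i => Int.cast_injective (congrFun e i)

theorem red_smul (n : ℤ) (x : L) : red K (n • x) = (n : K) • red K x := funext fun i => by simp [red]

theorem matQ_inj : Function.Injective (M.mat ℚ) := fun g h e => M.inj (LinearMap.ext fun x =>
  red_inj (by rw [← mat_red, e, mat_red]))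

theorem irrQ (W : Submodule ℚ (Fin 23 → ℚ)) (hW : ∀ g, ∀ w ∈ W, M.mat ℚ g *ᵥ w ∈ W) :
    W = ⊥ ∨ W = ⊤ := by
  refine or_iff_not_imp_left.2 fun h0 => ?_
  let f : L →ₗ[ℤ] (Fin 23 → ℚ) := (Int.castRingHom ℚ).toAddMonoidHom.toIntLinearMap.compLeft _
  obtain ⟨n, hn, h1⟩ := M.irr ((W.restrictScalars ℤ).comap f)
    (fun g x hx => show red ℚ _ ∈ W from M.mat_red ℚ g x ▸ hW g _ hx) (by
      obtain ⟨w, hw, hw0⟩ := Submodule.exists_mem_ne_zero_of_ne_bot h0
      obtain ⟨n, hn, x, hx⟩ := clear w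
      refine (Submodule.ne_bot_iff _).2 ⟨x, show (fun i => (x i : ℚ)) ∈ W from
        hx ▸ W.smul_of_tower_mem n hw, ?_⟩
      rintro rfl
      exact hw0 ((smul_eq_zero.1 (hx.symm.trans (by ext; simp))).resolve_left hn))
  refine eq_top_iff.2 fun w _ => ?_
  obtain ⟨m, hm, x, hx⟩ := clear w
  have h2 : red ℚ (n • x) ∈ W := h1 x
  rw [red_smul, show red ℚ x = _ from hx, ← Int.cast_smul_eq_zsmul ℚ, smul_smul] at h2
  exact (W.smul_mem_iff (by simp [hn, hm])).1 h2

theorem schurZ {φ : End ℤ L} (h : ∀ g, M.ρ g * φ = φ * M.ρ g) : ∃ c : ℤ, φ = c • 1 := by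
  obtain ⟨c, hc⟩ := schur (M.mat ℚ) (A := M.gram ℚ) (by
      rw [gram, ← RingHom.mapMatrix_apply, ← RingHom.map_det]; simpa using M.det_ne)
    (M.mat_gram ℚ) M.irrQ (φ := (LinearMap.toMatrix' φ).map (Int.castRingHom ℚ)) fun g => by
      rw [mat_eq, ← Matrix.map_mul, ← Matrix.map_mul, ← LinearMap.toMatrix'_mul, h, LinearMap.toMatrix'_mul]
  refine ⟨LinearMap.toMatrix' φ 0 0, LinearMap.toMatrix'.injective (Matrix.ext fun i j => ?_)⟩
  have h1 := congrFun₂ hc i j
  have h2 := congrFun₂ hc 0 0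
  simp only [map_apply, eq_intCast, Matrix.smul_apply, one_apply_eq, smul_eq_mul, mul_one] at h1 h2
  apply Int.cast_injective (α := ℚ)
  rw [h1, ← h2]
  simp [End.one_eq_id, one_apply, Pi.single_apply]

theorem avg [Fintype G] (α : L →ₗ[ℤ] ℤ) (x : L) :
    ∃ c : ℤ, 23 * c = Fintype.card G * α x ∧ ∀ y, ∑ g, α (M.ρ g⁻¹ y) • M.ρ g x = c • y := by
  have hg : ∀ g, M.ρ g⁻¹ * M.ρ g = 1 := fun g => by rw [← map_mul, inv_mul_cancel, map_one]
  obtain ⟨c, hc⟩ := M.schurZ (φ := ∑ g, M.ρ g * α.smulRight x * M.ρ g⁻¹) fun h => by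
    rw [Finset.mul_sum, Finset.sum_mul, ← Equiv.sum_comp (Equiv.mulLeft h⁻¹)]
    refine Finset.sum_congr rfl fun g _ => ?_
    simp only [Equiv.coe_mulLeft, _root_.mul_inv_rev, inv_inv, map_mul, ← mul_assoc]
    rw [← map_mul, mul_inv_cancel, map_one, one_mul]
  refine ⟨c, ?_, fun y => by
    simpa only [LinearMap.sum_apply, End.mul_apply, LinearMap.smulRight_apply, map_smul,
      LinearMap.smul_apply, End.one_apply] using LinearMap.congr_fun hc y⟩
  have := congrArg (LinearMap.trace ℤ L) hc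
  rw [map_sum, Finset.sum_congr rfl fun g _ => by
    rw [LinearMap.trace_mul_comm, ← mul_assoc, hg, one_mul, LinearMap.trace_smulRight], map_smul, LinearMap.trace_one, finrank_fin_fun] at this
  simp at this
  linarith

end Mod

end CfsgLib.Feit23
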