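import Mathlib
import Cfsg.Agent.Lib.Feit23.Mod
import Cfsg.Agent.Lib.Forms.Normal

/-!
# The lattice of minimal discriminant and an element of order 23
-/

set_option autoImplicit false

namespace CfsgLib.Feit23

open Matrix Module

attribute [-simp] zsmul_eq_mul natCast_zsmul

variable {G : Type*} [Group G]

theorem dvd_sum_of_inv [Fintype G] (H : Subgroup G) (f : G → ℤ) (hf : ∀ g, ∀ h ∈ H, f (g * h) = f g) :
    (Nat.card H : ℤ) ∣ ∑ g, f g := by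
  classical
  let e : (G ⧸ H) × H ≃ G := Equiv.ofBijective (fun p => p.1.out * p.2) ⟨by
    rintro ⟨a, x⟩ ⟨b, y⟩ h
    obtain rfl : a = b := by simpa using congrArg (QuotientGroup.mk (s := H)) h
    simpa using h, fun g => by
    obtain ⟨h, hh⟩ := QuotientGroup.mk_out_eq_mul H g
    exact ⟨(g, h⁻¹), by simp [hh]⟩⟩
  rw [← e.sum_comp, Fintype.sum_prod_type]
  refine Finset.dvd_sum fun q _ => ?_
  rw [Finset.sum_congr rfl fun h _ => show f (e (q, h)) = f q.out from hf _ _ h.2]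
  simp

theorem odd_ker {F V : Type*} [Field F] [AddCommGroup V] [Module F V] [FiniteDimensional F V]
    (B : LinearMap.BilinForm F V) (hB : B.IsAlt) (h : Odd (finrank F V)) :
    Odd (finrank F (LinearMap.ker B)) := by
  obtain ⟨U, hU⟩ := (LinearMap.ker B).exists_isCompl
  have h1 := Forms.even_finrank_of_alt (B.restrict U) (fun x => hB x) (by
    refine LinearMap.IsRefl.nondegenerate_iff_separatingLeft (hB.isRefl.domRestrict U) |>.2
      fun x hx => Subtype.ext (hU.disjoint.le_bot ⟨LinearMap.ext fun y => ?_, x.2⟩)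
    obtain ⟨a, ha, b, hb, rfl⟩ := Submodule.mem_sup.1 (hU.sup_eq_top ▸ Submodule.mem_top : y ∈ _)
    rw [map_add, hB.isRefl _ _ (LinearMap.congr_fun ha x), zero_add]
    exact hx ⟨b, hb⟩)
  rw [← Submodule.finrank_add_eq_of_isCompl hU, Nat.odd_add'] at h
  exact (Nat.odd_add.1 (by rwa [Nat.odd_add'])).2 h1

theorem ord23 : ∀ ℓ ≤ 24, ℓ.Prime → ℓ ≠ 23 → ∀ j ≤ 23, Odd j → ℓ ^ j ≡ ℓ [MOD 23] → j = 1 ∨ j = 23 :=
  fun ℓ h1 h2 h3 j h4 => (by decide +kernel : ∀ ℓ : Fin 25, ∀ j : Fin 24, ℓ.1.Prime → ℓ.1 ≠ 23 → Odd j.1 →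
    ℓ.1 ^ j.1 ≡ ℓ.1 [MOD 23] → j.1 = 1 ∨ j.1 = 23) ⟨ℓ, by omega⟩ ⟨j, by omega⟩ h2 h3

theorem red_eq_zero {ℓ : ℕ} {x : L} : Mod.red (ZMod ℓ) x = 0 ↔ ∃ z, x = (ℓ : ℤ) • z := by
  refine ⟨fun h => ?_, by rintro ⟨z, rfl⟩; simp [Mod.red_smul]⟩
  choose z hz using fun i => (ZMod.intCast_zmod_eq_zero_iff_dvd _ _).1 (congrFun h i)
  exact ⟨z, funext hz⟩

theorem red_sub (K : Type*) [CommRing K] (x y : L) : Mod.red K (x - y) = Mod.red K x - Mod.red K y :=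
  funext fun i => by simp [Mod.red]

theorem red_surj {ℓ : ℕ} (w : Fin 23 → ZMod ℓ) : ∃ x, Mod.red (ZMod ℓ) x = w :=
  ⟨fun i => ZMod.cast (w i), funext fun i => by simp [Mod.red]⟩

namespace Mod

variable (M : Mod G)

/-- the radical modulo `n` -/
def R (n : ℤ) : Submodule ℤ L where
  carrier := {x | ∀ y, n ∣ M.β x y}
  add_mem' ha hb y := by rw [map_add]; exact dvd_add (ha y) (hb y)
  zero_mem' y := by simp
  smul_mem' c x hx y := by rw [map_smul]; exact (hx y).mul_left c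

theorem act_inv (g : G) (x : L) : M.ρ g (M.ρ g⁻¹ x) = x := by
  rw [← End.mul_apply, ← map_mul, mul_inv_cancel, map_one, End.one_apply]

theorem inv_act (g : G) (x : L) : M.ρ g⁻¹ (M.ρ g x) = x := by simpa using M.act_inv g⁻¹ x

theorem act_mul (g h : G) (x : L) : M.ρ (g * h) x = M.ρ g (M.ρ h x) := by rw [map_mul]; rfl

theorem adj (g : G) (x y : L) : M.β (M.ρ g x) y = M.β x (M.ρ g⁻¹ y) := by
  rw [← M.inv g⁻¹, inv_act]

theorem R_inv (n : ℤ) (g : G) (x : L) (hx : x ∈ M.R n) : M.ρ g x ∈ M.R n := fun y => by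
  rw [adj]; exact hx _

theorem Min.rad {M : Mod G} (h : M.Min) {ℓ : ℕ} (hℓ : 0 < ℓ) : ℓ ^ 23 ≤ Nat.card (L ⧸ M.R ℓ) ^ 2 :=
  h _ ℓ (M.R_inv ℓ) hℓ (fun x y => by simp) fun x hx y _ => hx y

include M in
theorem dvd_card [Finite G] : 23 ∣ Nat.card G := by
  have := Fintype.ofFinite G
  obtain ⟨c, hc, -⟩ := M.avg (LinearMap.proj 0) (Pi.single 0 1)
  exact Int.natCast_dvd_natCast.1 ⟨c, by simpa using hc.symm⟩

theorem irr_mod [Finite G] {m ℓ : ℕ} (hm : Nat.card G = 23 * m) (hℓ : ℓ.Prime) (h : ¬ ℓ ∣ m)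
    (K : Submodule ℤ L) (hK : ∀ g, ∀ x ∈ K, M.ρ g x ∈ K) (h1 : ∀ y, (ℓ : ℤ) • y ∈ K) {x : L}
    (hx : x ∈ K) : (∃ z, x = (ℓ : ℤ) • z) ∨ K = ⊤ := by
  have := Fintype.ofFinite G
  refine or_iff_not_imp_left.2 fun h0 => eq_top_iff.2 fun y _ => ?_
  obtain ⟨i, hi⟩ : ∃ i, ¬ (ℓ : ℤ) ∣ x i := by
    by_contra hc
    push Not at hc
    choose z hz using hc
    exact h0 ⟨z, funext hz⟩
  obtain ⟨c, hc, h2⟩ := M.avg (LinearMap.proj i) x
  have h3 : c = m * x i := by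
    rw [Fintype.card_eq_nat_card, hm] at hc
    simp only [Nat.cast_mul, Nat.cast_ofNat, LinearMap.coe_proj, Function.eval] at hc
    linarith
  have h4 : c • y ∈ K := h2 y ▸ K.sum_mem fun g _ => K.smul_mem _ (hK g x hx)
  have hp := Nat.prime_iff_prime_int.1 hℓ
  obtain ⟨a, b, e⟩ := (hp.coprime_iff_not_dvd (n := c)).2 fun hd =>
    (hp.dvd_or_dvd (h3 ▸ hd)).elim (fun h' => h (Int.natCast_dvd_natCast.1 h')) hi
  rw [← one_smul ℤ y, ← e, add_smul, mul_smul, mul_smul]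
  exact add_mem (K.smul_mem _ (h1 y)) (K.smul_mem _ h4)

theorem Min.rad_of_not_dvd [Finite G] {M : Mod G} (hM : M.Min) {m ℓ : ℕ} (hm : Nat.card G = 23 * m)
    (hℓ : ℓ.Prime) (h : ¬ ℓ ∣ m) {x : L} (hx : x ∈ M.R ℓ) : ∃ z, x = (ℓ : ℤ) • z := by
  refine (M.irr_mod hm hℓ h _ (M.R_inv ℓ) (fun x y => by simp) hx).resolve_right fun e => ?_
  have := hM.rad hℓ.pos
  rw [e, Nat.card_unique] at this
  exact absurd this (not_le.2 (by simpa using hℓ.one_lt))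

theorem exists_gen {σ : G} (hσ : orderOf σ = 23) :
    ∃ v : L, v ≠ 0 ∧ M.ρ σ v = v ∧ ∀ z, M.ρ σ z = z → ∃ c : ℤ, z = c • v := by
  have h1 : M.mat ℚ σ ^ 23 = 1 := by
    rw [← map_pow, show σ ^ 23 = 1 from hσ ▸ pow_orderOf_eq_one σ, map_one]
  have h2 : M.mat ℚ σ ≠ 1 := by
    rw [← map_one (M.mat ℚ), M.matQ_inj.ne_iff]
    rintro rfl
    simp at hσ
  have h3 := eval_charpoly (M.mat ℚ σ) 1
  rw [charpoly23 h1 h2] at h3
  obtain ⟨w, hw, e⟩ := exists_mulVec_eq_zero_iff.2 (h3.symm.trans (by simp))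
  rw [map_one, sub_mulVec, one_mulVec, sub_eq_zero] at e
  obtain ⟨n, hn, u, hu⟩ := clear w
  have hu' : red ℚ u = n • w := hu
  have h4 : M.ρ σ u = u := red_inj (by rw [← mat_red, hu', mulVec_smul, ← e])
  have h5 : red ℚ u ≠ 0 := hu' ▸ smul_ne_zero hn hw
  obtain ⟨i, hi⟩ := Function.ne_iff.1 h5
  have h6 : ∀ z, M.ρ σ z = z → z i = 0 → z = 0 := fun z hz h0 => by
    obtain ⟨c, hc⟩ := fixed23 h1 h2 (x := red ℚ u) (y := red ℚ z) (by rw [mat_red, h4])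
      (by rw [mat_red, hz]) h5
    have : c = 0 := by
      have := congrFun hc i
      rw [show red ℚ z i = 0 by simp [red, h0]] at this
      exact (smul_eq_zero.1 this).resolve_right hi
    exact red_inj (by rw [← hc, this]; ext; simp [red])
  let F : Submodule ℤ L := LinearMap.eqLocus (M.ρ σ) LinearMap.id
  obtain ⟨a, ha⟩ := (IsPrincipalIdealRing.principal (F.map (LinearMap.proj i : L →ₗ[ℤ] ℤ))).principal
  obtain ⟨v, hv, rfl⟩ : a ∈ F.map (LinearMap.proj i : L →ₗ[ℤ] ℤ) :=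
    ha ▸ Submodule.mem_span_singleton_self a
  have h7 : ∀ z, M.ρ σ z = z → ∃ c : ℤ, z = c • v := fun z hz => by
    obtain ⟨c, hc⟩ := Submodule.mem_span_singleton.1
      (ha ▸ ⟨z, hz, rfl⟩ : z i ∈ Submodule.span ℤ {(LinearMap.proj i : L →ₗ[ℤ] ℤ) v})
    exact ⟨c, sub_eq_zero.1 (h6 _ (by rw [map_sub, map_smul, hz, show M.ρ σ v = v from hv])
      (sub_eq_zero.2 hc.symm))⟩
  refine ⟨v, ?_, hv, h7⟩
  rintro rfl
  obtain ⟨c, rfl⟩ := h7 u h4
  exact h5 (by ext; simp [red])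

end Mod

/-- a lattice with an element `σ` of order 23, its fixed vector `v` and the norm map `k` -/
structure St0 (G : Type*) [Group G] extends Mod G where
  σ : G
  v : L
  k : L →ₗ[ℤ] ℤ
  hσ : σ ^ 23 = 1
  v0 : v ≠ 0
  σv : ρ σ v = v
  prim : ∀ z, ρ σ z = z → ∃ c : ℤ, z = c • v
  hN : ∀ x, ∑ i ∈ Finset.range 23, ρ (σ ^ i) x = k x • v

theorem sum_shift {V : Type*} [AddCommGroup V] (f : ℕ → V) (h : f 23 = f 0) :
    ∑ i ∈ Finset.range 23, f (i + 1) = ∑ i ∈ Finset.range 23, f i := by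
  have := Finset.sum_range_succ' f 23
  rw [Finset.sum_range_succ, h] at this
  exact (add_right_cancel this).symm

theorem Mod.exists_st0 (M : Mod G) {σ : G} (hσ : orderOf σ = 23) :
    ∃ S : St0 G, S.toMod = M ∧ S.σ = σ := by
  obtain ⟨v, v0, σv, prim⟩ := M.exists_gen hσ
  have h1 : σ ^ 23 = 1 := hσ ▸ pow_orderOf_eq_one σ
  let N : L →ₗ[ℤ] L := ∑ i ∈ Finset.range 23, M.ρ (σ ^ i)
  have hN : ∀ x, N x ∈ Submodule.span ℤ {v} := fun x => by
    obtain ⟨c, hc⟩ := prim (N x) (by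
      simp only [N, LinearMap.sum_apply, map_sum, ← M.act_mul, ← pow_succ']
      exact sum_shift (fun i => M.ρ (σ ^ i) x) (by rw [h1, pow_zero]))
    exact Submodule.mem_span_singleton.2 ⟨c, hc.symm⟩
  exact ⟨⟨M, σ, v, (LinearEquiv.coord ℤ L v v0).toLinearMap ∘ₗ N.codRestrict _ hN, h1, v0, σv, prim,
    fun x => by
      rw [← LinearMap.sum_apply]
      exact (LinearEquiv.coord_apply_smul ℤ L v v0 ⟨N x, hN x⟩).symm⟩, rfl, rfl⟩

namespace St0

variable (S : St0 G)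

theorem pow_fix {z : L} (h : S.ρ S.σ z = z) (i : ℕ) : S.ρ (S.σ ^ i) z = z := by
  induction i with
  | zero => simp
  | succ i ih => rw [pow_succ, S.act_mul, h, ih]

theorem kv : S.k S.v = 23 := smul_left_injective ℤ S.v0 (by
  have := S.hN S.v
  simp only [S.pow_fix S.σv, Finset.sum_const, Finset.card_range] at this
  simp only [← this]
  rfl)

theorem kσ (x : L) : S.k (S.ρ S.σ x) = S.k x := smul_left_injective ℤ S.v0 (by
  simp only [← S.hN, ← S.act_mul, ← pow_succ]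
  exact sum_shift (fun i => S.ρ (S.σ ^ i) x) (by rw [S.hσ, pow_zero]))

theorem kpow (i : ℕ) (x : L) : S.k (S.ρ (S.σ ^ i) x) = S.k x := by
  induction i with
  | zero => simp
  | succ i ih => rw [pow_succ', S.act_mul, kσ, ih]

theorem bv23 (x : L) : 23 * S.β x S.v = S.k x * S.β S.v S.v := by
  have := congrArg (S.β · S.v) (S.hN x)
  simp only [map_sum, LinearMap.sum_apply, map_smul, LinearMap.smul_apply, smul_eq_mul] at this
  rw [← this, Finset.sum_congr rfl (g := fun _ => S.β x S.v) fun i _ => by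
    rw [← S.inv (S.σ ^ i) x, S.pow_fix S.σv i]]
  simp

theorem not_smul {ℓ : ℕ} (hℓ : ℓ.Prime) (z : L) : S.v ≠ (ℓ : ℤ) • z := fun e => by
  have h0 : (ℓ : ℤ) ≠ 0 := by exact_mod_cast hℓ.ne_zero
  obtain ⟨c, hc⟩ := S.prim z (smul_right_injective _ h0 (by simp only [← map_smul, ← e, S.σv]))
  rw [hc, smul_smul] at e
  have : (1 : ℤ) = ℓ * c := smul_left_injective ℤ S.v0 (by simpa using e)
  exact hℓ.one_lt.ne' (Nat.dvd_one.1 (Int.natCast_dvd_natCast.1 ⟨c, this⟩))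

/-- `23 x` is congruent to `k x • v` modulo every subgroup containing the `σ y - y`. -/
theorem mem_of_sub {K : Submodule ℤ L} {x : L} (h : ∀ i, S.ρ (S.σ ^ (i + 1)) x - S.ρ (S.σ ^ i) x ∈ K) :
    (23 : ℤ) • x - S.k x • S.v ∈ K := by
  have h1 : ∀ i, x - S.ρ (S.σ ^ i) x ∈ K := fun i => by
    induction i with
    | zero => simp
    | succ i ih => simpa using K.sub_mem ih (h i)
  have := K.sum_mem (t := Finset.range 23) fun i _ => h1 i
  rwa [Finset.sum_sub_distrib, S.hN, Finset.sum_const, Finset.card_range] at this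

theorem exists_x0 [Finite G] (hσ : orderOf S.σ = 23) (h : ¬ 23 ^ 2 ∣ Nat.card G) : ∃ x, S.k x = 1 := by
  have := Fintype.ofFinite G
  obtain ⟨x, hx⟩ : ∃ x, ¬ 23 ∣ S.k x := by
    by_contra hc
    push Not at hc
    choose f hf using hc
    obtain ⟨c, h1, h2⟩ := S.avg (LinearMap.proj 0) (Pi.single 0 1)
    have h3 := congrArg S.k (h2 S.v)
    simp only [map_sum, map_smul, smul_eq_mul, kv] at h3
    simp only [hf, mul_left_comm _ (23 : ℤ), ← Finset.mul_sum] at h3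
    have h4 := dvd_sum_of_inv (Subgroup.zpowers S.σ)
      (fun g => S.ρ g S.v 0 * f (S.ρ g⁻¹ (Pi.single 0 1))) fun g a ha => by
        obtain ⟨i, rfl⟩ := mem_powers_iff_mem_zpowers.2 ha
        have h5 := S.kpow i (S.ρ (g * S.σ ^ i)⁻¹ (Pi.single 0 1))
        rw [← S.act_mul, _root_.mul_inv_rev, mul_inv_cancel_left, hf, hf] at h5
        simp only [S.act_mul g, S.pow_fix S.σv, _root_.mul_inv_rev]
        rw [mul_left_cancel₀ (by norm_num) h5]
    rw [Nat.card_zpowers, hσ, ← Equiv.sum_comp (Equiv.inv G)] at h4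
    obtain ⟨e, he⟩ := h4
    simp only [Equiv.inv_apply, inv_inv] at he
    simp only [LinearMap.coe_proj, Function.eval, he, Pi.single_eq_same, mul_one] at h3 h1
    exact h (Int.natCast_dvd_natCast.1 ⟨e, by
      rw [← Fintype.card_eq_nat_card]; push_cast at h3 ⊢; linarith⟩)
  obtain ⟨a, b, e⟩ := ((Int.prime_iff_natAbs_prime.2 (by norm_num)).coprime_iff_not_dvd (p := 23)).2 hx
  exact ⟨a • S.v + b • x, by simpa [kv] using e⟩

theorem fix_red {ℓ : ℕ} (hℓ : ℓ.Prime) (h23 : ℓ ≠ 23) {w : Fin 23 → ZMod ℓ}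
    (h : S.mat (ZMod ℓ) S.σ *ᵥ w = w) : ∃ c : ZMod ℓ, w = c • Mod.red (ZMod ℓ) S.v := by
  have := Fact.mk hℓ
  obtain ⟨x, rfl⟩ := red_surj w
  have h0 : (23 : ZMod ℓ) ≠ 0 := fun e => h23 ((Nat.prime_dvd_prime_iff_eq hℓ (by norm_num)).1
    ((ZMod.natCast_eq_zero_iff 23 ℓ).1 e))
  obtain ⟨z, hz⟩ := red_eq_zero.1 (show Mod.red (ZMod ℓ) (S.ρ S.σ x - x) = 0 by
    rw [red_sub, ← Mod.mat_red, h, sub_self])
  obtain ⟨y, hy⟩ := S.mem_of_sub (x := x) (K := LinearMap.range ((ℓ : ℤ) • LinearMap.id))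
    fun i => ⟨S.ρ (S.σ ^ i) z, by rw [pow_succ, S.act_mul, ← map_sub, hz]; simp⟩
  have h1 := red_eq_zero.2 ⟨y, hy.symm⟩
  rw [red_sub, Mod.red_smul, Mod.red_smul, sub_eq_zero] at h1
  exact ⟨23⁻¹ * S.k x, by rw [mul_smul, ← h1, Int.cast_ofNat, inv_smul_smul₀ h0]⟩

theorem rad_small (hM : S.Min) {x0 : L} (hx0 : S.k x0 = 1) {ℓ : ℕ} (hℓ : ℓ.Prime) (h23 : ℓ ≠ 23)
    (h24 : ℓ ≤ 24) {x : L} (hx : x ∈ S.R ℓ) : ∃ z, S.ρ S.σ x - x = (ℓ : ℤ) • z := by
  classical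
  have := Fact.mk hℓ
  have : Fact (Nat.Prime 23) := ⟨by norm_num⟩
  let s := S.mat (ZMod ℓ) S.σ
  let B : LinearMap.BilinForm (ZMod ℓ) (Fin 23 → ZMod ℓ) := toBilin' (S.gram (ZMod ℓ))
  let Ω := B.compRight (toLin' s) - B.compLeft (toLin' s)
  have hΩ : ∀ x y, Ω (Mod.red _ x) (Mod.red _ y) = (S.β (S.ρ S.σ⁻¹ x - S.ρ S.σ x) y : ℤ) := fun x y => by
    simp only [Ω, B, s, LinearMap.sub_apply, LinearMap.BilinForm.compRight_apply,
      LinearMap.BilinForm.compLeft_apply, toLin'_apply, Mod.mat_red, toBilin'_apply', Mod.gram_red,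
      map_sub, S.adj S.σ⁻¹, inv_inv, Int.cast_sub]
  have hT : ∀ x, Mod.red _ x ∈ LinearMap.ker Ω ↔ S.ρ S.σ⁻¹ x - S.ρ S.σ x ∈ S.R ℓ := fun x =>
    ⟨fun h y => (ZMod.intCast_zmod_eq_zero_iff_dvd _ _).1 (hΩ x y ▸ LinearMap.congr_fun h _),
      fun h => LinearMap.ext fun y => by
        obtain ⟨y, rfl⟩ := red_surj y
        exact (hΩ x y).trans ((ZMod.intCast_zmod_eq_zero_iff_dvd _ _).2 (h y))⟩
  have hodd := odd_ker Ω (fun w => by
    obtain ⟨x, rfl⟩ := red_surj w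
    rw [hΩ, map_sub, LinearMap.sub_apply, S.adj S.σ⁻¹, inv_inv, S.symm, sub_self, Int.cast_zero])
    (by rw [finrank_fin_fun]; decide)
  have hs : ∀ w ∈ LinearMap.ker Ω, s *ᵥ w ∈ LinearMap.ker Ω := fun w hw => by
    obtain ⟨x, rfl⟩ := red_surj w
    rw [Mod.mat_red, hT]
    simpa only [map_sub, S.act_inv, S.inv_act] using S.R_inv ℓ S.σ _ ((hT x).1 hw)
  let f : Function.End (LinearMap.ker Ω) := fun w => ⟨s *ᵥ w, hs _ w.2⟩
  have hf : ∀ (i : ℕ) w, ((f ^ i) w).1 = s ^ i *ᵥ w := fun i w => by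
    induction i with
    | zero => simp [Function.End.one_def]
    | succ i ih => rw [pow_succ', pow_succ', ← mulVec_mulVec, ← ih]; rfl
  have hv : Mod.red (ZMod ℓ) S.v ≠ 0 := fun e => by
    obtain ⟨z, hz⟩ := red_eq_zero.1 e
    exact S.not_smul hℓ z hz
  have hsv : s *ᵥ Mod.red _ S.v = Mod.red _ S.v := by rw [Mod.mat_red, S.σv]
  have hvT : Mod.red _ S.v ∈ LinearMap.ker Ω := (hT _).2 (by
    rw [show S.ρ S.σ⁻¹ S.v = S.v by rw [← S.σv, S.inv_act, S.σv], S.σv, sub_self]; exact zero_mem _)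
  have hfix : Fintype.card f.fixedPoints = ℓ := by
    refine Eq.trans ?_ (ZMod.card ℓ)
    refine (Fintype.card_of_bijective (f := fun c : ZMod ℓ => (⟨⟨c • Mod.red _ S.v,
      Submodule.smul_mem _ _ hvT⟩, Subtype.ext (by simp [f, mulVec_smul, hsv])⟩ : f.fixedPoints))
      ⟨fun a b e => smul_left_injective _ hv (congrArg (·.1.1) e), fun w => ?_⟩).symm
    obtain ⟨c, hc⟩ := S.fix_red hℓ h23 (congrArg Subtype.val w.2)
    exact ⟨c, Subtype.ext (Subtype.ext hc.symm)⟩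
  have h1 := Equiv.Perm.card_fixedPoints_modEq (f := f) (p := 23) (n := 1) (funext fun w =>
    Subtype.ext (by rw [hf, pow_one, ← map_pow, S.hσ, map_one, one_mulVec]; rfl))
  have h2 : Fintype.card (LinearMap.ker Ω) = ℓ ^ finrank (ZMod ℓ) (LinearMap.ker Ω) := by
    rw [card_eq_pow_finrank (K := ZMod ℓ), ZMod.card]
  rw [hfix, h2] at h1
  have h3 : finrank (ZMod ℓ) (LinearMap.ker Ω) ≤ 23 :=
    (Submodule.finrank_le _).trans (finrank_fin_fun _).le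
  rcases ord23 ℓ h24 hℓ h23 _ h3 hodd h1 with e | e
  · rw [e, pow_one] at h2
    have h4 : (⟨_, (hT x).2 (sub_mem (S.R_inv ℓ _ x hx) (S.R_inv ℓ _ x hx))⟩ : LinearMap.ker Ω) ∈
        f.fixedPoints := by
      rw [(set_fintype_card_eq_univ_iff _).1 (hfix.trans h2.symm)]; trivial
    exact red_eq_zero.1 (by rw [red_sub, ← Mod.mat_red, sub_eq_zero]; exact congrArg Subtype.val h4)
  · exfalso
    have h4 : ∀ y, S.ρ S.σ⁻¹ y - S.ρ S.σ y ∈ S.R ℓ := fun y => (hT y).1 (by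
      rw [Submodule.eq_top_of_finrank_eq (e.trans (finrank_fin_fun _).symm)]; trivial)
    have h5 : ∀ (i : ℕ) y, y - S.ρ (S.σ ^ (2 * i)) y ∈ S.R ℓ := fun i y => by
      induction i with
      | zero => simp
      | succ i ih =>
        have := h4 (S.ρ (S.σ ^ (2 * i + 1)) y)
        rw [pow_succ', S.act_mul, S.inv_act, ← S.act_mul, ← S.act_mul, mul_assoc, ← pow_succ',
          ← pow_succ'] at this
        simpa [mul_add] using add_mem ih this
    have h6 : ∀ y, y - S.k y • x0 ∈ S.R ℓ := fun y w => by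
      have := S.mem_of_sub (K := S.R ℓ) (x := y - S.k y • x0) fun i => by
        have := neg_mem (h5 12 (S.ρ (S.σ ^ i) (y - S.k y • x0)))
        rwa [neg_sub, show 2 * 12 = 23 + 1 by rfl, pow_succ, S.hσ, one_mul, ← S.act_mul,
          ← pow_succ'] at this
      simp only [map_sub, map_smul, hx0, smul_eq_mul, mul_one, sub_self, zero_smul, sub_zero] at this
      have h7 := this w
      rw [map_smul, LinearMap.smul_apply, smul_eq_mul] at h7
      exact ((Nat.prime_iff_prime_int.1 hℓ).dvd_or_dvd h7).resolve_left fun h => h23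
        ((Nat.prime_dvd_prime_iff_eq hℓ (by norm_num)).1 (Int.natCast_dvd_natCast.1 h))
    have h7 : Nat.card (L ⧸ S.R ℓ) ≤ Nat.card (ZMod ℓ) := Nat.card_le_card_of_surjective
      (fun c : ZMod ℓ => Submodule.Quotient.mk ((ZMod.cast c : ℤ) • x0)) fun q => by
        obtain ⟨y, rfl⟩ := Submodule.Quotient.mk_surjective _ q
        refine ⟨S.k y, (Submodule.Quotient.eq _).2 fun w => ?_⟩
        obtain ⟨c, hc⟩ := (ZMod.intCast_eq_intCast_iff_dvd_sub _ _ _).1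
          (ZMod.intCast_zmod_cast (S.k y : ZMod ℓ))
        have := h6 y w
        simp only [map_sub, map_smul, LinearMap.sub_apply, LinearMap.smul_apply, smul_eq_mul] at this ⊢
        rw [show (ZMod.cast (S.k y : ZMod ℓ) : ℤ) = S.k y - ℓ * c by linarith]
        obtain ⟨e, he⟩ := this
        exact ⟨-e - c * S.β x0 w, by linear_combination -he⟩
    rw [Nat.card_zmod] at h7
    exact absurd ((hM.rad hℓ.pos).trans (Nat.pow_le_pow_left h7 2))
      (not_le.2 (Nat.pow_lt_pow_right hℓ.one_lt (by norm_num)))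

theorem sqf (hM : S.Min) {ℓ : ℕ} (hℓ : ℓ.Prime) : S.v ∉ S.R (ℓ ^ 2) := fun hv => by
  have := Fact.mk hℓ
  let K : Submodule ℤ L := LinearMap.range ((ℓ : ℤ) • LinearMap.id) ⊔ S.R (ℓ ^ 2)
  have h1 := hM K (ℓ ^ 2) (fun g x hx => by
      obtain ⟨_, ⟨a, rfl⟩, b, hb, rfl⟩ := Submodule.mem_sup.1 hx
      rw [map_add]
      exact Submodule.add_mem_sup ⟨S.ρ g a, by simp⟩ (S.R_inv _ g b hb)) (pow_pos hℓ.pos 2)
    (fun x => Submodule.mem_sup_right fun y => by simp) fun x hx y hy => by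
      obtain ⟨_, ⟨a, rfl⟩, b, hb, rfl⟩ := Submodule.mem_sup.1 hx
      obtain ⟨_, ⟨c, rfl⟩, e, he, rfl⟩ := Submodule.mem_sup.1 hy
      rw [LinearMap.map_add₂, map_add (S.β _), S.symm _ e, Nat.cast_pow]
      exact dvd_add (dvd_add ⟨S.β a c, by simp; ring⟩ (he _)) (hb _)
  have hK : ∀ w : Fin 23 → ZMod ℓ, ∀ x, Mod.red _ x = w →
      (Submodule.Quotient.mk (fun i => ZMod.cast (w i)) : L ⧸ K) = Submodule.Quotient.mk x := by
    rintro _ x rfl
    obtain ⟨z, hz⟩ := red_eq_zero.1 (show Mod.red (ZMod ℓ)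
      ((fun i => ZMod.cast (Mod.red (ZMod ℓ) x i)) - x) = 0 by ext; simp [Mod.red])
    exact (Submodule.Quotient.eq _).2 (Submodule.mem_sup_left ⟨z, hz.symm⟩)
  let f : (Fin 23 → ZMod ℓ) → L ⧸ K := fun w => Submodule.Quotient.mk fun i => ZMod.cast (w i)
  have hf : Function.Surjective f := fun q => by
    obtain ⟨y, rfl⟩ := Submodule.Quotient.mk_surjective _ q
    exact ⟨_, hK _ y rfl⟩
  have := Finite.of_surjective f hf
  have := Fintype.ofFinite (L ⧸ K)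
  have h2 := Fintype.card_lt_of_surjective_not_injective f hf fun hi => by
    obtain ⟨z, hz⟩ := red_eq_zero.1 (hi (a₁ := Mod.red _ S.v) (a₂ := 0) ((hK _ _ rfl).trans
      (((Submodule.Quotient.eq _).2 (by simpa using Submodule.mem_sup_right hv)).trans
        (hK _ 0 (by ext; simp [Mod.red])).symm)))
    exact S.not_smul hℓ z hz
  rw [Fintype.card_fun, ZMod.card, Fintype.card_fin, Fintype.card_eq_nat_card] at h2
  rw [← pow_mul, mul_comm, pow_mul] at h1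
  exact absurd h1 (not_le.2 (Nat.pow_lt_pow_left h2 (by norm_num)))

end St0

/-- the normalised situation -/
structure St (G : Type*) [Group G] extends St0 G where
  x0 : L
  d : ℤ
  kx0 : k x0 = 1
  bv : ∀ x, β x v = k x * d
  rad23 : ∀ x, (∀ y, 23 ∣ β x y) → ∃ z, x = (23 : ℤ) • z
  rad : ∀ ℓ : ℕ, ℓ.Prime → ℓ ≠ 23 → ∀ x, (∀ y, (ℓ : ℤ) ∣ β x y) → ∃ z, ρ σ x - x = (ℓ : ℤ) • z
  sqf : ∀ ℓ : ℕ, ℓ.Prime → ¬ (ℓ : ℤ) ^ 2 ∣ d
  idx : ∀ H : Subgroup G, H.index ≠ 23 ∧ H.index ≠ 24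

theorem exists_st [Finite G] (M₀ : Mod G) (idx : ∀ H : Subgroup G, H.index ≠ 23 ∧ H.index ≠ 24) :
    Nonempty (St G) := by
  obtain ⟨M, hM⟩ := M₀.exists_min
  have : Fact (Nat.Prime 23) := ⟨by norm_num⟩
  obtain ⟨σ, hσ⟩ := exists_prime_orderOf_dvd_card' 23 M.dvd_card
  obtain ⟨S, rfl, rfl⟩ := M.exists_st0 hσ
  obtain ⟨m, hm⟩ := S.dvd_card
  have h23 := not_sq_dvd _ S.matQ_inj
  obtain ⟨x0, hx0⟩ := S.exists_x0 hσ h23
  have bv : ∀ x, S.β x S.v = S.k x * S.β x0 S.v := fun x => by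
    have h1 := S.bv23 x
    rw [← one_mul (S.β S.v S.v), ← hx0, ← S.bv23] at h1
    linarith
  refine ⟨⟨S, x0, S.β x0 S.v, hx0, bv, fun x hx => hM.rad_of_not_dvd (ℓ := 23) hm (by norm_num)
    (fun h => h23 (by rw [hm, sq]; exact Nat.mul_dvd_mul_left _ h)) hx, fun ℓ hℓ h x hx => ?_,
    fun ℓ hℓ h => S.sqf hM hℓ fun y => by rw [S.symm, bv]; exact h.mul_left _, idx⟩⟩
  by_cases hd : ℓ ∣ m
  · exact S.rad_small hM hx0 hℓ h (prime_le _ S.matQ_inj hℓ (hm ▸ hd.mul_left _)) hx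
  · obtain ⟨z, rfl⟩ := hM.rad_of_not_dvd hm hℓ hd hx
    exact ⟨S.ρ S.σ z - z, by rw [map_smul, smul_sub]⟩

end CfsgLib.Feit23
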