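import Mathlib
import Cfsg.Agent.Lib.Feit23.St

/-!
# The lattice has no roots
-/

set_option autoImplicit false

namespace CfsgLib.Feit23

open Matrix Module

attribute [-simp] zsmul_eq_mul natCast_zsmul

variable {G : Type*} [Group G]

theorem mem_of_pow {H : Subgroup G} {σ : G} (hσ : σ ^ 23 = 1) {n : ℕ} (hn : ¬ 23 ∣ n)
    (h : σ ^ n ∈ H) : σ ∈ H := by
  obtain ⟨m, hm⟩ := exists_pow_eq_self_of_coprime (x := σ) (n := n)
    (((Nat.Prime.coprime_iff_not_dvd (by norm_num)).2 hn).symm.coprime_dvd_right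
      (orderOf_dvd_of_pow_eq_one hσ))
  exact hm ▸ pow_mem h m

/-- at most 24 pairs `±F i` permuted, one of them moved by an element of order 23 -/
theorem pair_false {V ι : Type*} [AddCommGroup V] [Fintype ι] (r : Representation ℤ G V)
    (idx : ∀ H : Subgroup G, H.index ≠ 23 ∧ H.index ≠ 24) {σ : G} (hσ : σ ^ 23 = 1) {u : V}
    (h1 : r σ u ≠ u) (h2 : r σ u ≠ -u) (hι : Fintype.card ι ≤ 24) (F : ι → V)
    (h : ∀ g, ∃ i, r g u = F i ∨ r g u = -F i) : False := by
  have hm : ∀ g g' x, r (g * g') x = r g (r g' x) := fun g g' x => by rw [map_mul]; rfl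
  have hi : ∀ g x, r g⁻¹ (r g x) = x := fun g x => by rw [← hm, inv_mul_cancel, map_one]; rfl
  let H : Subgroup G :=
    { carrier := {g | r g u = u ∨ r g u = -u}
      one_mem' := Or.inl (by simp)
      mul_mem' := by rintro a b (ha | ha) (hb | hb) <;> simp [hm, ha, hb]
      inv_mem' := by
        rintro a (ha | ha)
        · exact Or.inl (by simpa [ha] using hi a u)
        · exact Or.inr (by simpa [ha, neg_eq_iff_eq_neg] using hi a u) }
  choose c hc using h
  have h3 : Function.Injective fun q : G ⧸ H => c q.out := fun p q e => by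
    rw [← p.out_eq, ← q.out_eq]
    refine QuotientGroup.eq.2 ?_
    have h4 := hi p.out u
    have h5 := hc q.out
    rw [← show c p.out = c q.out from e] at h5
    show r _ u = u ∨ r _ u = -u
    rw [hm]
    rcases hc p.out with a | a <;> rcases h5 with b | b <;> rw [a] at h4 <;> rw [b] <;>
      simp_all [neg_eq_iff_eq_neg]
  have := Finite.of_injective _ h3
  have h4 := Nat.card_le_card_of_injective _ h3
  have h5 : ∀ i j : Fin 23, i < j → ((σ ^ i.1 : G) : G ⧸ H) ≠ (σ ^ j.1 : G) := fun i j hij e => by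
    have := QuotientGroup.eq.1 e
    rw [show j.1 = i + (j - i) by omega, pow_add, inv_mul_cancel_left] at this
    exact (mem_of_pow hσ (by omega) this).elim h1 h2
  have h6 := Nat.card_le_card_of_injective (fun i : Fin 23 => ((σ ^ i.1 : G) : G ⧸ H))
    (Function.Injective.of_lt_imp_ne h5)
  have h7 := idx H
  rw [Nat.card_eq_fintype_card (α := ι)] at h4
  rw [Nat.card_fin] at h6
  unfold Subgroup.index at h7
  omega

theorem zmod_ind {P : ZMod 23 → Prop} (h : ∀ i, P i → P (i + 1)) {a : ZMod 23} (ha : P a)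
    (i : ZMod 23) : P i := by
  have : ∀ n : ℕ, P (a + n) := fun n => by
    induction n with
    | zero => simpa using ha
    | succ n ih => simpa [add_assoc] using h _ ih
  simpa using this (i - a).val

namespace Mod

variable (M : Mod G)

theorem nonneg (x : L) : 0 ≤ M.β x x := by
  rcases eq_or_ne x 0 with rfl | h
  · simp
  · exact (M.pos x h).le

theorem norm_sub (x y : L) : M.β (x - y) (x - y) = M.β x x - 2 * M.β x y + M.β y y := by
  simp only [map_sub, LinearMap.sub_apply, M.symm y x]; ring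

theorem norm_add (x y : L) : M.β (x + y) (x + y) = M.β x x + 2 * M.β x y + M.β y y := by
  simp only [map_add, LinearMap.add_apply, M.symm y x]; ring

theorem bound {x y : L} {n : ℤ} (hx : M.β x x = n) (hy : M.β y y = n) :
    -n ≤ M.β x y ∧ M.β x y ≤ n ∧ (M.β x y = n → x = y) ∧ (M.β x y = -n → x = -y) := by
  have h1 := M.nonneg (x - y)
  have h2 := M.nonneg (x + y)
  have h3 := mt (M.pos (x - y))
  have h4 := mt (M.pos (x + y))
  rw [norm_sub] at h1 h3
  rw [norm_add] at h2 h4
  exact ⟨by omega, by omega, fun e => sub_eq_zero.1 (not_not.1 (h3 (by omega))),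
    fun e => eq_neg_of_add_eq_zero_left (not_not.1 (h4 (by omega)))⟩

theorem parseval (r s : ZMod 23 → L) {n : ℤ} (hn : n ≠ 0)
    (h : ∀ i j, M.β (r i) (s j) = if i = j then n else 0) (y : L) :
    n • y = ∑ j, M.β y (s j) • r j := by
  rw [← sub_eq_zero]
  generalize hz : n • y - _ = z
  have h1 : ∀ j, M.β z (s j) = 0 := fun j => by simp [← hz, h, mul_comm]
  by_contra h0
  have := (Fintype.linearIndependent_iff (R := ℤ) (v := fun o : Option (ZMod 23) => o.elim z s)).2
    fun c hc => by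
      rw [Fintype.sum_option] at hc
      have h2 : c none = 0 := by simpa [h1, (M.pos z h0).ne'] using congrArg (M.β z) hc
      rintro (_ | i)
      · exact h2
      · simpa [h2, h, hn] using congrArg (M.β (r i)) hc
  simpa using this.fintype_card_le_finrank

theorem parseval' (r s : ZMod 23 → L) {n : ℤ} (hn : n ≠ 0)
    (h : ∀ i j, M.β (r i) (s j) = if i = j then n else 0) (y : L) :
    n * M.β y y = ∑ j, M.β y (s j) * M.β y (r j) := by
  simpa using congrArg (M.β y) (M.parseval r s hn h y)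

end Mod

theorem h01 : (0 : ZMod 23) ≠ 1 := by decide

/-- Gram function of type `D` -/
def bD (m : ZMod 23) : ℤ := if m = 0 then 2 else if m = 1 ∨ m = -1 then 1 else 0

/-- alternating signs -/
def sg (i : ZMod 23) : ℤ := (-1) ^ i.val

theorem St.caseD (S : St G) {τ : G} (hτ : τ ^ 23 = 1) (r : ZMod 23 → L)
    (h1 : ∀ i, S.ρ τ (r i) = r (i + 1)) (h2 : ∀ i l, S.β (r i) (r l) = bD (l - i)) : False := by
  let u : ZMod 23 → L := fun l => ∑ i, sg i • r (l + i)
  have h3 : ∀ l m, S.β (u l) (r m) = if m - l = 0 ∨ m - l = -1 then 2 else 0 := fun l m => by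
    simp only [u, map_sum, map_smul, LinearMap.sum_apply, LinearMap.smul_apply, smul_eq_mul, h2,
      ← sub_sub]
    generalize m - l = e
    revert e; decide +kernel
  have h4 : ∀ l m, S.β (u l) (u m) = if l = m then 4 else 0 := fun l m => by
    conv_lhs => rw [show u m = ∑ i, sg i • r (m + i) from rfl]
    simp only [map_sum, map_smul, smul_eq_mul, h3, ← sub_add_eq_add_sub, ← sub_eq_zero (a := l),
      ← neg_sub m l]
    generalize m - l = e
    revert e; decide +kernel
  have h5 : ∀ y l, S.β y (u l) + S.β y (u (l + 1)) = 2 * S.β y (r l) := fun y l => by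
    have := congrArg (S.β y) (S.parseval u u (by norm_num) h4 (r l))
    rw [← Equiv.sum_comp (Equiv.subLeft l)] at this
    simp only [S.symm (r l), h3, map_sum, map_smul, smul_eq_mul, Equiv.subLeft_apply,
      sub_sub_cancel] at this
    rw [Finset.sum_eq_add 0 (-1) (by decide) (fun c _ hc => by simp [hc.1, hc.2]) (by simp)
      (by simp)] at this
    simp at this
    omega
  have h6 : ∀ y l, 2 ∣ S.β y (u l) := fun y l => by
    by_contra hc
    have h7 := zmod_ind (P := fun i => ¬ 2 ∣ S.β y (u i)) (fun i hi => by have := h5 y i; omega) hc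
    have h8 := congrArg (· % 4) (S.parseval' u u (by norm_num) h4 y)
    simp only [Int.mul_emod_right] at h8
    rw [Finset.sum_int_mod, Finset.sum_congr rfl (g := fun _ => 1) fun i _ => by
      obtain ⟨c, hc⟩ : Odd (S.β y (u i)) := by have := h7 i; rw [Int.odd_iff]; omega
      rw [hc, show (2 * c + 1) * (2 * c + 1) = 1 + 4 * (c * c + c) by ring]; simp] at h8
    simp at h8
  have h7 : S.ρ τ (u 0) = u 1 := by simp [u, h1, add_comm]
  refine pair_false S.ρ S.idx hτ (u := u 0) (fun e => ?_) (fun e => ?_) (by simp) u fun g => ?_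
  · simpa [← h7, e, h4, h01] using h4 0 1
  · simpa [← h7, e, h4, h01] using h4 0 1
  · have hw : S.β (S.ρ g (u 0)) (S.ρ g (u 0)) = 4 := by simp [S.inv, h4]
    have h8 := S.parseval' u u (by norm_num) h4 (S.ρ g (u 0))
    have h9 : ∀ i, 4 ∣ S.β (S.ρ g (u 0)) (u i) := fun i => by
      by_contra hc
      have := zmod_ind (P := fun i => ¬ 4 ∣ S.β (S.ρ g (u 0)) (u i)) (fun i hi => by
        have := h5 (S.ρ g (u 0)) i
        have := h6 (S.ρ g⁻¹ (r i)) 0
        rw [S.symm, ← S.adj] at this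
        omega) hc
      have := Finset.card_nsmul_le_sum Finset.univ
        (fun j => S.β (S.ρ g (u 0)) (u j) * S.β (S.ρ g (u 0)) (u j)) 1 fun j _ =>
          Int.add_one_le_of_lt (mul_self_pos.2 fun e => this j (by rw [e]; exact dvd_zero 4))
      simp [← h8, hw] at this
    obtain ⟨i, -, hi⟩ := Finset.exists_ne_zero_of_sum_ne_zero (h8.symm.trans_ne (by simp [hw]))
    obtain ⟨a, b, c, d⟩ := S.bound hw (show S.β (u i) (u i) = 4 by simp [h4])
    have := h9 i
    rw [mul_self_ne_zero] at hi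
    exact ⟨i, Or.imp c d (by omega)⟩

theorem St.caseA (S : St G) {τ : G} (hτ : τ ^ 23 = 1) (r : ZMod 23 → L)
    (h1 : ∀ i, S.ρ τ (r i) = r (i + 1)) (h2 : ∀ i l, S.β (r i) (r l) = if i = l then 2 else 1) :
    False := by
  obtain ⟨u, hu⟩ : ∃ u, u = ∑ i, r i := ⟨_, rfl⟩
  have hs : ∀ y, S.β y u = ∑ i, S.β y (r i) := fun y => by simp [hu]
  have h3 : ∀ l, S.β (r l) u = 24 := fun l => by
    simp only [hs, h2]
    revert l; decide +kernel
  have h3' : ∀ l, S.β u (r l) = 24 := fun l => S.symm _ _ ▸ h3 l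
  have h4 : S.β u u = 552 := by simp [hs u, h3']
  have h5 : ∀ y, 24 * S.β y y = 24 * ∑ i, S.β y (r i) * S.β y (r i) - S.β y u * S.β y u := fun y => by
    rw [S.parseval' (fun i => (24 : ℤ) • r i - u) r (n := 24) (by norm_num) (fun i j => by
      simp only [map_sub, map_smul, LinearMap.sub_apply, LinearMap.smul_apply, h2, h3']
      split_ifs <;> rfl) y]
    simp only [map_sub, map_smul, smul_eq_mul, mul_sub, Finset.sum_sub_distrib, ← Finset.sum_mul, ← hs,
      Finset.mul_sum, mul_left_comm _ (24 : ℤ)]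
  have h6 : ∀ y, S.β y y = 2 → 24 ∣ S.β y u := fun y hy => by
    have a := h5 y
    have b : S.β y u ≤ ∑ i, S.β y (r i) * S.β y (r i) :=
      hs y ▸ Finset.sum_le_sum fun i _ => Int.le_self_sq _ |>.trans_eq (sq _)
    have c : -S.β y u ≤ ∑ i, S.β y (r i) * S.β y (r i) := by
      rw [hs, ← Finset.sum_neg_distrib]
      exact Finset.sum_le_sum fun i _ => (Int.le_self_sq _).trans_eq (by ring)
    have d := S.nonneg ((16 : ℤ) • y - u)
    have e := S.nonneg ((16 : ℤ) • y + u)
    simp only [S.norm_sub, S.norm_add, map_smul, LinearMap.smul_apply, smul_eq_mul, hy, h4] at a d e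
    generalize S.β y u = s at *
    obtain ⟨d, e⟩ : -33 ≤ s ∧ s ≤ 33 := by omega
    interval_cases s <;> omega
  let f : ZMod 23 → L := fun i => u - (24 : ℤ) • r i
  have hf : ∀ y i, S.β y (f i) = S.β y u - 24 * S.β y (r i) := fun y i => by simp [f]
  have hff : ∀ i j, S.β (f i) (f j) = if i = j then 552 else -24 := fun i j => by
    rw [hf, S.symm, hf, S.symm (f i), hf, h3, h3', h4, h2]
    by_cases h : i = j <;> simp [h, eq_comm]
  have key : ∀ w, S.β w w = 552 → (∀ i, 24 ∣ S.β w (r i)) → 0 ≤ S.β w u →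
      ∃ o : Option (ZMod 23), w = o.elim u f ∨ w = -o.elim u f := fun w hw hd h0 => by
    choose b hb using hd
    have a := h5 w
    have e := hs w
    simp only [hb, ← Finset.mul_sum] at e
    obtain ⟨-, c1, c2, -⟩ := S.bound hw h4
    have c : ∀ i, b i = 0 ∨ b i = 1 := fun i => by
      obtain ⟨a1, a2, -⟩ := S.bound hw (show S.β (f i) (f i) = 552 by simp [hff])
      rw [hf, hb] at a1 a2
      omega
    rw [Finset.sum_congr rfl (g := fun i => 576 * b i) fun i _ => by
      rw [hb]; rcases c i with h | h <;> simp [h], ← Finset.mul_sum, hw, e] at a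
    rcases mul_eq_zero.1 (show (∑ i, b i - 1) * (∑ i, b i - 23) = 0 by linarith) with h | h
    · obtain ⟨i, -, hi⟩ := Finset.exists_ne_zero_of_sum_ne_zero (show ∑ i, b i ≠ 0 by omega)
      have := c i
      exact ⟨some i, Or.inr ((S.bound hw (show S.β (f i) (f i) = 552 by simp [hff])).2.2.2
        (by rw [hf, hb]; omega))⟩
    · exact ⟨none, Or.inl (c2 (by omega))⟩
  have h7 : S.ρ τ (f 0) = f 1 := by
    simp only [f, map_sub, map_smul, h1, zero_add, hu, map_sum]
    rw [← Equiv.sum_comp (Equiv.addRight 1) r]; rfl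
  refine pair_false S.ρ S.idx hτ (u := f 0) (fun e => ?_) (fun e => ?_) (by simp)
    (fun o : Option (ZMod 23) => o.elim u f) fun g => ?_
  · simpa [← h7, e, hff, h01] using hff 0 1
  · simpa [← h7, e, hff, h01] using hff 0 1
  · have hw : S.β (S.ρ g (f 0)) (S.ρ g (f 0)) = 552 := by simp [S.inv, hff]
    have hd : ∀ i, 24 ∣ S.β (S.ρ g (f 0)) (r i) := fun i => by
      rw [S.adj, S.symm, hf]
      exact dvd_sub (h6 _ (by simp [S.inv, h2])) (dvd_mul_right _ _)
    rcases le_total 0 (S.β (S.ρ g (f 0)) u) with h | h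
    · exact key _ hw hd h
    · obtain ⟨o, ho⟩ := key (-S.ρ g (f 0)) (by simpa using hw) (by simpa using hd) (by simpa using h)
      exact ⟨o, by simpa [neg_eq_iff_eq_neg] using ho.symm⟩

/-- test vector -/
def tX (i : ZMod 23) : ℤ :=
  [2, 2, 2, 1, 1, 0, 0, -1, -1, -2, -2, -2, -2, -2, -2, -1, -1, 0, 0, 1, 1, 2, 2].getD i.val 0

/-- its autocorrelation -/
def tC (i : ZMod 23) : ℤ := [52, 48, 44, 34, 24, 10, -3, -17, -29, -39, -46, -50, -50, -46, -39, -29,
  -17, -3, 10, 24, 34, 44, 48].getD i.val 0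

/-- symmetric functions coded by bits -/
def tA (n : ℕ) (m : ZMod 23) : ℤ :=
  if m = 0 then 2 else if n.testBit (min m.val (23 - m.val) - 1) then 1 else 0

theorem tC_eq : ∀ t m : ZMod 23, ∑ i, tX (t * i) * tX (t * (i + m)) = tC (t * m) ∨ t = 0 := by
  decide +kernel

theorem tA_cases : ∀ n < 2 ^ 11, (∀ t : ZMod 23, t ≠ 0 → 0 ≤ ∑ m, tC (t * m) * tA n m) →
    (∀ m, tA n m = if m = 0 then 2 else 0) ∨ (∀ m, tA n m = if m = 0 then 2 else 1) ∨
      ∃ j, ∀ m, tA n (j * m) = bD m := by
  decide +kernel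

theorem psd (a : ZMod 23 → ℤ) (h0 : a 0 = 2) (hs : ∀ j, a (-j) = a j)
    (h1 : ∀ j, j ≠ 0 → a j = 0 ∨ a j = 1)
    (hp : ∀ X : ZMod 23 → ℤ, 0 ≤ ∑ i, ∑ j, X i * X j * a (j - i)) :
    (∀ m, a m = if m = 0 then 2 else 0) ∨ (∀ m, a m = if m = 0 then 2 else 1) ∨
      ∃ j, ∀ m, a (j * m) = bD m := by
  obtain ⟨n, hn, rfl⟩ : ∃ n < 2 ^ 11, a = tA n := by
    refine ⟨_, Nat.ofBits_lt_two_pow fun i : Fin 11 => decide (a (i.1 + 1 : ℕ) = 1), funext fun m => ?_⟩
    rcases eq_or_ne m 0 with rfl | hm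
    · simp [tA, h0]
    obtain ⟨h2, h3⟩ := (by decide : ∀ m : ZMod 23, m ≠ 0 → min m.val (23 - m.val) - 1 < 11 ∧
      (((min m.val (23 - m.val) - 1 + 1 : ℕ) : ZMod 23) = m ∨
        ((min m.val (23 - m.val) - 1 + 1 : ℕ) : ZMod 23) = -m)) m hm
    rw [tA, if_neg hm, Nat.testBit_ofBits_lt _ _ h2]
    rcases h3 with h | h <;> rcases h1 m hm with e | e <;> simp only [h, hs, e] <;> simp
  refine tA_cases _ hn fun t ht => (hp fun i => tX (t * i)).trans_eq ?_
  rw [Finset.sum_congr rfl fun i _ => (Equiv.sum_comp (Equiv.addLeft i) _).symm, Finset.sum_comm]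
  refine Finset.sum_congr rfl fun m _ => ?_
  rw [← (tC_eq t m).resolve_right ht, Finset.sum_mul]
  simp

namespace St

variable (S : St G)

/-- the orbit under `σ` -/
def o (x : L) (i : ZMod 23) : L := S.ρ (S.σ ^ i.val) x

theorem o_zero (x : L) : S.o x 0 = x := by simp [o]

theorem o_o (x : L) (i j : ZMod 23) : S.o (S.o x i) j = S.o x (j + i) := by
  rw [o, o, o, ← S.act_mul, ← pow_add, ZMod.val_add, ← pow_eq_pow_mod _ S.hσ]

theorem β_o (x y : L) (i j : ZMod 23) : S.β (S.o x i) (S.o y j) = S.β x (S.o y (j - i)) := by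
  rw [← S.inv (S.σ ^ i.val) x]
  exact congrArg _ ((S.o_o y _ i).trans (by simp)).symm

theorem k_o (x : L) (i : ZMod 23) : S.k (S.o x i) = S.k x := S.kpow _ x

theorem sum_o (x : L) : ∑ i, S.o x i = S.k x • S.v :=
  (Fin.sum_univ_eq_sum_range (fun i => S.ρ (S.σ ^ i) x) 23).trans (S.hN x)

theorem βv : S.β S.v S.v = 23 * S.d := by rw [S.bv, S.kv]

theorem d_pos : 0 < S.d := by have := S.pos _ S.v0; rw [βv] at this; omega

theorem o_fix {x : L} {i : ZMod 23} (hi : i ≠ 0) (h : S.o x i = x) : ∃ c : ℤ, x = c • S.v :=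
  S.prim x (mem_of_pow (H := (MulAction.stabilizer (End ℤ L)ˣ x).comap S.ρ.toHomUnits) S.hσ
    (fun e => hi ((ZMod.val_eq_zero i).1 (Nat.eq_zero_of_dvd_of_lt e i.val_lt))) h)

theorem k_le (x : L) : S.k x ^ 2 * S.d ≤ 23 * S.β x x := by
  have := S.nonneg ((23 : ℤ) • x - S.k x • S.v)
  simp only [S.norm_sub, map_smul, LinearMap.smul_apply, smul_eq_mul, S.bv, S.kv] at this
  linarith

theorem exists_k_ne {x : L} (hx : x ≠ 0) : ∃ g, S.k (S.ρ g x) ≠ 0 := by
  by_contra hc
  push Not at hc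
  obtain ⟨n, hn, h⟩ := S.irr (⨅ g, LinearMap.ker (S.k ∘ₗ S.ρ g)) (fun g y hy => by
    simp only [Submodule.mem_iInf, LinearMap.mem_ker, LinearMap.comp_apply, ← S.act_mul] at hy ⊢
    exact fun _ => hy _) ((Submodule.ne_bot_iff _).2 ⟨x, by simpa using hc, hx⟩)
  simpa [S.kv, hn] using (Submodule.mem_iInf _).1 (h S.v) 1

theorem no_root (x : L) : S.β x x ≠ 2 := fun hx => by
  have hd := S.d_pos
  obtain ⟨g, hg⟩ := S.exists_k_ne (x := x) (by rintro rfl; simp at hx)
  obtain ⟨_, ⟨r, hr, rfl⟩, hmax⟩ := Int.exists_greatest_of_bdd (P := fun z => ∃ r, S.β r r = 2 ∧ S.k r = z)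
    ⟨46, by rintro _ ⟨r, hr, rfl⟩; nlinarith [S.k_le r, sq_nonneg (S.k r), sq_nonneg (S.k r - 1)]⟩
    ⟨_, x, hx, rfl⟩
  have hm : ∀ y, S.β y y = 2 → S.k y ≤ S.k r := fun y hy => hmax _ ⟨y, hy, rfl⟩
  have h0 : 0 < S.k r := by
    have a := hm (S.ρ g x) (by rw [S.inv, hx])
    have b := hm (-S.ρ g x) (by simpa [S.inv] using hx)
    rw [map_neg] at b
    omega
  have ho : ∀ i, S.β (S.o r i) (S.o r i) = 2 := fun i => (S.inv _ _ _).trans hr
  have hs : ∀ j i, S.ρ (S.σ ^ j.val) (S.o r (j * i)) = S.o r (j * (i + 1)) := fun j i =>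
    (S.o_o r _ j).trans (by rw [mul_add, mul_one, add_comm])
  have h23 : ∀ j : ZMod 23, (S.σ ^ j.val) ^ 23 = 1 := fun j => by rw [pow_right_comm, S.hσ, one_pow]
  rcases psd (fun j => S.β r (S.o r j)) (by simp [o_zero, hr])
    (fun j => by rw [S.symm, ← S.o_zero r, o_o, β_o]; simp [o_zero]) (fun j hj => by
      obtain ⟨a, b, c, d⟩ := S.bound hr (ho j)
      have e := mt (hm (r + S.o r j))
      have c' : S.β r (S.o r j) ≠ 2 := fun h => by
        obtain ⟨n, rfl⟩ := S.o_fix hj (c h).symm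
        simp only [map_smul, LinearMap.smul_apply, smul_eq_mul, βv] at hr
        rw [show n * (n * (23 * S.d)) = 23 * (n * n * S.d) by ring] at hr
        omega
      have d' : S.β r (S.o r j) ≠ -2 := fun h => by
        have := congrArg S.k (d h)
        rw [map_neg, k_o] at this
        omega
      rw [S.norm_add, map_add, k_o, hr, ho] at e
      omega)
    (fun X => (S.nonneg (∑ i, X i • S.o r i)).trans_eq (by
      simp only [LinearMap.map_sum₂, LinearMap.map_smul₂]
      simp only [map_sum, map_smul, smul_eq_mul, β_o, Finset.mul_sum, mul_assoc])) with h | h | ⟨j, h⟩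
  · have h2 : ∀ i j, S.β (S.o r i) (S.o r j) = if i = j then 2 else 0 := fun i j => by
      simp only [β_o, h, sub_eq_zero, eq_comm]
    refine pair_false S.ρ S.idx (h23 1) (u := r) (fun e => ?_) (fun e => ?_) (by simp) (S.o r)
      fun g => ?_
    · simpa [show S.o r 1 = r from e, hr, h01.symm] using h 1
    · simpa [show S.o r 1 = -r from e, hr, h01.symm] using h 1
    by_contra hc
    push Not at hc
    generalize hy : S.ρ g r = y at hc
    have hy : S.β y y = 2 := by rw [← hy, S.inv, hr]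
    have h3 : ∀ i, S.β y (S.o r i) = -1 ∨ S.β y (S.o r i) = 0 ∨ S.β y (S.o r i) = 1 := fun i => by
      obtain ⟨a, b, c, d⟩ := S.bound hy (ho i)
      have := mt c (hc i).1
      have := mt d (hc i).2
      omega
    let e : ZMod 23 → ℤ := fun i => if S.β y (S.o r i) = -1 then 1 else 0
    have h4 := hm (y + ∑ i, e i • S.o r i) (by
      simp only [S.norm_add, hy, map_sum, map_smul, LinearMap.sum_apply, LinearMap.smul_apply,
        smul_eq_mul, h2, mul_ite, mul_zero, Finset.sum_ite_eq', Finset.mem_univ, if_true, add_assoc,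
        Finset.mul_sum, ← Finset.sum_add_distrib, add_eq_left]
      exact Finset.sum_eq_zero fun i _ => by simp only [e]; split_ifs <;> omega)
    have h5 := congrArg S.k (S.parseval _ _ two_ne_zero h2 y)
    have h6 := S.parseval' _ _ two_ne_zero h2 y
    simp only [map_add, map_sum, map_smul, smul_eq_mul, k_o, ← Finset.sum_mul] at h4 h5
    rw [Finset.sum_congr rfl (g := fun i => S.β y (S.o r i) + 2 * e i) fun i _ => by
      rcases h3 i with h | h | h <;> simp [e, h], Finset.sum_add_distrib, ← Finset.mul_sum] at h6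
    rw [show ∑ i, S.β y (S.o r i) = 4 - 2 * ∑ i, e i by omega] at h5
    linarith
  · exact S.caseA (h23 1) (S.o r) (by simpa using hs 1) fun i l => by
      simp only [β_o, h, sub_eq_zero, eq_comm]
  · exact S.caseD (h23 j) (fun i => S.o r (j * i)) (hs j) fun i l => by rw [β_o, ← mul_sub, h]

end St

end CfsgLib.Feit23
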