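import Mathlib
import Cfsg.Agent.Lib.Feit23.Root
import Cfsg.Agent.Lib.Leech.Spor
import Cfsg.Agent.S1570
import Cfsg.Agent.S5551

/-!
# Groups fixing a line of the Leech lattice
-/

set_option autoImplicit false

namespace CfsgLib.Feit23

open Matrix Module Cfsg Leech MulAction

attribute [-simp] zsmul_eq_mul natCast_zsmul

variable {G : Type*} [Group G]

theorem embed_stab (Φ : G →* Co0) (hΦ : Function.Injective Φ) {U V : leechLattice} (hU : U ≠ 0)
    (hV : sqNorm U.1 = sqNorm V.1) (h64 : sqNorm U.1 ≤ 64) (h : ∀ g, Φ g • U = U ∨ Φ g • U = -U) :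
    ∃ f : G →* Multiplicative (ZMod 2) × stabilizer Co0 V, Function.Injective f := by
  classical
  obtain ⟨c, rfl⟩ := exists_smul_eq_of_sqNorm U V hV h64
  have h0 : -U ≠ U := fun e => hU (smul_right_injective _ (two_ne_zero (α := ℤ))
    (by simpa [two_smul] using neg_eq_iff_add_eq_zero.1 e))
  have hn : ∀ g, g * negAut = negAut * g := Subgroup.mem_center_iff.1 negAut_mem_center
  let f : G →* Multiplicative (ZMod 2) × stabilizer Co0 U := MonoidHom.mk'
    (fun g => (if Φ g • U = U then 1 else Multiplicative.ofAdd 1,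
      ⟨(if Φ g • U = U then 1 else negAut) * Φ g, by
        rcases h g with e | e <;> simp [mul_smul, e, h0, negAut_smul]⟩)) fun a b => by
    refine Prod.ext ?_ (Subtype.ext ?_) <;> rcases h a with ha | ha <;> rcases h b with hb | hb <;>
      simp [mul_smul, ha, hb, h0, ← mul_assoc, hn]
    exacts [rfl, negAut_mul_self]
  refine ⟨((MonoidHom.id _).prodMap (stabilizerEquivStabilizer rfl).toMonoidHom).comp f,
    (Function.injective_id.prodMap (MulEquiv.injective _)).comp ((injective_iff_map_eq_one f).2 fun g e => ?_)⟩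
  rcases h g with a | a
  · exact hΦ (by simpa [f, a] using congrArg (·.2.1) e)
  · simpa [f, a, h0] using congrArg (·.1) e

theorem embed_co (Φ : G →* Co0) (hΦ : Function.Injective Φ)
    (idx : ∀ H : Subgroup G, H.index ≠ 23 ∧ H.index ≠ 24) {σ : G} (hσ : σ ^ 23 = 1) (h1 : σ ≠ 1)
    {u : leechLattice} (h2 : ∀ z, u ≠ (2 : ℤ) • z) (h : ∀ g, Φ g • u = u ∨ Φ g • u = -u) :
    (∃ f : G →* Multiplicative (ZMod 2) × Spor.Co2, Function.Injective f) ∨
      ∃ f : G →* Multiplicative (ZMod 2) × Spor.Co3, Function.Injective f := by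
  obtain ⟨y, hy, h64, z, hz, e⟩ := Agent.S1570.result u.1 u.2
  lift y to leechLattice using hy
  lift z to leechLattice using hz
  replace e : u - y = (2 : ℤ) • z := Subtype.ext (by simpa [two_smul] using e)
  have h0 : y ≠ 0 := fun h0 => h2 z (by simpa [h0] using e)
  have h3 : ∀ g, ∃ w : leechLattice, y - Φ g • y = (2 : ℤ) • w := fun g => by
    have := congrArg (Φ g • ·) e
    simp only [smul_sub, co0_smul_zsmul] at this
    rcases h g with a | a <;> rw [a] at this <;> generalize Φ g • y = y', Φ g • z = z' at this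
    · exact ⟨z' - z, by linear_combination (norm := module) this - e⟩
    · exact ⟨u + z' - z, by linear_combination (norm := module) this - e⟩
  have h4 : sqNorm y.1 < 64 → ∀ g, Φ g • y = y ∨ Φ g • y = -y := fun hl g => by
    obtain ⟨w, hw⟩ := h3 g
    simpa only [Subtype.ext_iff, NegMemClass.coe_neg] using (Agent.S5551.result y.1 (Φ g • y).1 y.2 (Φ g • y).2
      (by simpa using h0) (by simpa [smul_eq_zero_iff_eq] using h0) h64 (by rwa [sqNorm_smul])
      ⟨w, w.2, by simpa [two_smul] using congrArg Subtype.val hw⟩).2 hl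
  have a := min_norm y.2 (by simpa using h0)
  have b := sqNorm_mod y.2
  obtain c | c | c : sqNorm y.1 = 32 ∨ sqNorm y.1 = 48 ∨ sqNorm y.1 = 64 := by omega
  · obtain ⟨f, hf⟩ := embed_stab Φ hΦ h0 (c.trans sqNorm_U.symm) h64 (h4 (by omega))
    exact Or.inl ⟨((MonoidHom.id _).prodMap co2Equiv.symm.toMonoidHom).comp f,
      (Function.injective_id.prodMap co2Equiv.symm.injective).comp hf⟩
  · obtain ⟨f, hf⟩ := embed_stab Φ hΦ h0 (c.trans sqNorm_V.symm) h64 (h4 (by omega))
    exact Or.inr ⟨((MonoidHom.id _).prodMap co3Equiv.symm.toMonoidHom).comp f,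
      (Function.injective_id.prodMap co3Equiv.symm.injective).comp hf⟩
  exfalso
  obtain ⟨c, hc⟩ := exists_smul_eq_e8 y c none
  let Ψ := (MulAut.conj c).toMonoidHom.comp Φ
  have h5 : ∀ g a, ∃ b, Ψ g • e8 a = e8 b ∨ Ψ g • e8 a = -e8 b := fun g => by
    obtain ⟨w, hw⟩ := h3 g
    obtain ⟨b, hb⟩ := eq_e8_of_congr (y := Ψ g • e8 none) (z := c • w) (a := none)
      (by rw [sqNorm_smul, sqNorm_e8]) (by simp [Ψ, ← hc, mul_smul, ← smul_sub, hw, co0_smul_zsmul])
    exact smul_e8_of_mem_monoGrp (mem_monoGrp_of_smul_e8 _ hb)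
  obtain ⟨a, ha⟩ : ∃ a, Ψ σ • e8 a ≠ e8 a ∧ Ψ σ • e8 a ≠ -e8 a := by
    by_contra hc
    push Not at hc
    refine h1 (mem_of_pow (H := ⊥) hσ (n := 2) (by norm_num) (((MulAut.conj c).injective.comp hΦ)
      (show Ψ _ = Ψ 1 from co0_ext_e8 fun a => ?_)))
    rw [map_pow, sq, mul_smul, map_one, one_smul]
    by_cases e : Ψ σ • e8 a = e8 a
    · rw [e, e]
    · rw [hc a e, smul_neg, hc a e, neg_neg]
  exact pair_false ((Representation.ofDistribMulAction ℤ Co0 leechLattice).comp Ψ) idx hσ ha.1 ha.2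
    (by simp) e8 fun g => h5 g a

end CfsgLib.Feit23
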