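import Mathlib
import Cfsg.Agent.Lib.Leech.Aut
import Cfsg.Agent.S0406
import Cfsg.Agent.S1632

/-!
# Even unimodular lattices of rank 24 and 28
-/

set_option autoImplicit false

namespace CfsgLib.Feit23

open Matrix Module Cfsg

theorem det_nonneg {n : ℕ} {B : Matrix (Fin n) (Fin n) ℤ} (hs : B.IsSymm)
    (hpos : ∀ x, 0 ≤ x ⬝ᵥ B *ᵥ x) : 0 ≤ B.det := by
  have : (B.map (Int.cast : ℤ → ℝ)).PosSemidef := PosSemidef.of_dotProduct_mulVec_nonneg
      (isHermitian_iff_isSymm.2 (hs.map _)) fun x => by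
    have hd : DenseRange fun (q : Fin n → ℚ) i => (q i : ℝ) :=
      DenseRange.piMap fun _ => Rat.denseRange_cast
    refine hd.induction_on x (isClosed_le continuous_const
      (by unfold mulVec dotProduct; fun_prop)) fun q => ?_
    obtain ⟨d, hd⟩ := IsLocalization.exist_integer_multiples_of_finite (nonZeroDivisors ℤ) q
    choose y hy using hd
    have h0 : ((d : ℤ) : ℝ) ≠ 0 := by exact_mod_cast nonZeroDivisors.coe_ne_zero d
    have h1 : (fun i => (q i : ℝ)) = ((d : ℤ) : ℝ)⁻¹ • fun i => (y i : ℝ) := by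
      ext i
      have := congrArg (Rat.cast : ℚ → ℝ) (hy i)
      simp only [eq_intCast, Rat.cast_intCast, zsmul_eq_mul, Rat.cast_mul] at this
      simp [this, h0]
    rw [star_trivial, h1, mulVec_smul, dotProduct_smul, smul_dotProduct, Theta.form_intCast,
      smul_eq_mul, smul_eq_mul, ← mul_assoc]
    exact mul_nonneg (mul_self_nonneg _) (by exact_mod_cast hpos y)
  have h := this.det_nonneg
  rw [show B.map (Int.cast : ℤ → ℝ) = (Int.castRingHom ℝ).mapMatrix B from rfl, ← RingHom.map_det] at h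
  simpa using h

open Complex in
theorem not_rank28 {B : Matrix (Fin 28) (Fin 28) ℤ} (hs : B.IsSymm) (hpos : ∀ x, 0 ≤ x ⬝ᵥ B *ᵥ x)
    (heven : ∀ x, 2 ∣ x ⬝ᵥ B *ᵥ x) (hdet : B.det = 1) : False := by
  have hA := Theta.posDef_cast hs hpos hdet
  have h1 : ∀ t, Theta.th B (t + I) = Theta.th B t := fun t => tsum_congr fun x => by
    obtain ⟨c, hc⟩ := heven x
    rw [hc, exp_eq_exp_iff_exists_int]
    exact ⟨-c, by push_cast; ring⟩
  have h2 : ∀ t : ℂ, 0 < t.re → t ^ 14 * Theta.th B t = Theta.th B t⁻¹ := fun t ht => by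
    have h0 : t ≠ 0 := by rintro rfl; simp at ht
    rw [Theta.th_inv hA hdet ht, pow_mul _ 2 14, div_pow, one_div 2, cpow_ofNat_inv_pow,
      ← mul_assoc, ← mul_pow]
    simp [h0]
  have h3 : Theta.th B 1 ≠ 0 := by
    have h3 : Theta.th B 1 = ((∑' x : Fin 28 → ℤ, ‖cexp (-Real.pi * 1 * (x ⬝ᵥ B *ᵥ x : ℤ))‖ : ℝ) : ℂ) := by
      rw [ofReal_tsum, Theta.th]
      refine tsum_congr fun x => ?_
      rw [Complex.norm_exp, ofReal_exp]
      simp
    rw [h3, ofReal_ne_zero]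
    exact ((Theta.summable_th hA (by simp)).tsum_pos (fun _ => norm_nonneg _) 0
      (norm_pos_iff.2 (Complex.exp_ne_zero _))).ne'
  have a := h2 (1 + I) (by simp)
  have b := h2 (1 - I) (by simp)
  rw [← h1 (1 - I), sub_add_cancel, show (1 - I)⁻¹ = (1 + I)⁻¹ + I by
    simp [Complex.ext_iff, normSq_apply]; norm_num, h1, ← a, h1] at b
  have c := mul_right_cancel₀ h3 b
  simp [Complex.ext_iff, pow_succ] at c
  norm_num at c

variable {N : Type*} [AddCommGroup N]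

/-- an even positive definite form that is nonsingular modulo every prime -/
structure EUni (γ : LinearMap.BilinForm ℤ N) : Prop where
  symm : ∀ x y, γ x y = γ y x
  pos : ∀ x, x ≠ 0 → 0 < γ x x
  even : ∀ x, 2 ∣ γ x x
  rad : ∀ ℓ : ℕ, ℓ.Prime → ∀ x, (∀ y, (ℓ : ℤ) ∣ γ x y) → ∃ z, x = (ℓ : ℤ) • z

variable [Module.Free ℤ N] [Module.Finite ℤ N] {γ : LinearMap.BilinForm ℤ N}

theorem EUni.gram (h : EUni γ) {n : ℕ} (hn : finrank ℤ N = n) :
    ∃ (e : (Fin n → ℤ) ≃ₗ[ℤ] N) (B : Matrix (Fin n) (Fin n) ℤ), B.IsSymm ∧ B.det = 1 ∧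
      (∀ x, 0 ≤ x ⬝ᵥ B *ᵥ x) ∧ ∀ x y, x ⬝ᵥ B *ᵥ y = γ (e x) (e y) := by
  let e : (Fin n → ℤ) ≃ₗ[ℤ] N := LinearEquiv.ofFinrankEq _ _ (by rw [hn, finrank_fin_fun])
  let B := LinearMap.BilinForm.toMatrix' (γ.comp e.toLinearMap e.toLinearMap)
  have hB : ∀ x y, x ⬝ᵥ B *ᵥ y = γ (e x) (e y) := fun x y => by
    rw [← toBilin'_apply', toBilin'_toMatrix']; rfl
  have hs : B.IsSymm := Matrix.ext fun i j => by simp [B, h.symm (e (Pi.single i 1))]
  have hp : ∀ x, 0 ≤ x ⬝ᵥ B *ᵥ x := fun x => by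
    rcases eq_or_ne (e x) 0 with h0 | h0
    · simp [hB, h0]
    · exact hB x x ▸ (h.pos _ h0).le
  refine ⟨e, B, hs, ?_, hp, hB⟩
  rw [← Int.natAbs_of_nonneg (det_nonneg hs hp), Nat.cast_eq_one, Nat.eq_one_iff_not_exists_prime_dvd]
  intro ℓ hℓ hd
  have := Fact.mk hℓ
  obtain ⟨w, hw, h0⟩ := (exists_mulVec_eq_zero_iff (M := B.map (Int.castRingHom (ZMod ℓ)))).2 (by
    rw [← RingHom.mapMatrix_apply, ← RingHom.map_det]
    exact (ZMod.intCast_zmod_eq_zero_iff_dvd _ _).2 (Int.natCast_dvd.2 hd))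
  obtain ⟨x, rfl⟩ : ∃ x : Fin n → ℤ, Int.castRingHom (ZMod ℓ) ∘ x = w :=
    ⟨fun i => ZMod.cast (w i), funext fun i => by simp⟩
  obtain ⟨z, hz⟩ := h.rad ℓ hℓ (e x) fun y => by
    rw [h.symm, ← e.apply_symm_apply y, ← hB]
    exact Finset.dvd_sum fun i _ => Dvd.dvd.mul_left ((ZMod.intCast_zmod_eq_zero_iff_dvd _ _).1
      ((RingHom.map_mulVec _ B x i).trans (congrFun h0 i))) _
  rw [← e.apply_symm_apply z, ← map_smul, e.injective.eq_iff] at hz
  exact hw (funext fun i => by simp [hz])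

theorem EUni.not28 (h : EUni γ) : finrank ℤ N ≠ 28 := fun hn => by
  obtain ⟨e, B, hs, hd, hp, hB⟩ := h.gram hn
  exact not_rank28 hs hp (fun x => hB x x ▸ h.even _) hd

theorem EUni.leech (h : EUni γ) (hn : finrank ℤ N = 24) (h2 : ∀ x, γ x x ≠ 2) :
    ∃ f : N ≃+ leechLattice, ∀ x, sqNorm (f x).1 = 8 * γ x x := by
  obtain ⟨e, B, hs, hd, -, hB⟩ := h.gram hn
  have a : ∀ x, x ≠ 0 → 0 < x ⬝ᵥ B *ᵥ x := fun x hx => hB x x ▸ h.pos _ (by simpa using hx)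
  have b : ∀ x, 2 ∣ x ⬝ᵥ B *ᵥ x := fun x => hB x x ▸ h.even _
  have c : ∀ x, x ⬝ᵥ B *ᵥ x ≠ 2 := fun x => hB x x ▸ h2 _
  obtain ⟨h4, h6, h8⟩ := Agent.S1632.result B hs a b hd c
  obtain ⟨f, hf⟩ := Agent.S0406.result B hs a b c h4 h6 h8
  exact ⟨e.symm.toAddEquiv.trans f, fun x => by simpa [hB] using hf (e.symm x)⟩

omit [Module.Free ℤ N] [Module.Finite ℤ N] in
theorem exists_co0 {H : Type*} [Group H] (r : Representation ℤ H N) (hr : ∀ g x, γ (r g x) (r g x) = γ x x)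
    (f : N ≃+ leechLattice) (hf : ∀ x, sqNorm (f x).1 = 8 * γ x x) :
    ∃ Φ : H →* Co0, ∀ g x, Φ g • f x = f (r g x) := by
  have hm : ∀ g g' x, r g (r g' x) = r (g * g') x := fun g g' x => by rw [map_mul]; rfl
  refine ⟨MonoidHom.mk' (fun g => ⟨⟨fun x => f (r g (f.symm x)), fun x => f (r g⁻¹ (f.symm x)),
    fun x => by simp [hm], fun x => by simp [hm]⟩, fun x y => by simp, fun x => ?_⟩)
    fun g g' => Leech.co0_ext fun x => ?_, fun g x => by simp [Leech.co0_smul_def]⟩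
  · simpa [hf, hr] using (hf (f.symm x)).symm
  · simp [mul_smul, Leech.co0_smul_def]

end CfsgLib.Feit23
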