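import Mathlib
import Cfsg.Agent.Lib.Feit23.Root
import Cfsg.Agent.Lib.Feit23.Uni

/-!
# Gluing the orthogonal complement of the fixed vector to a lattice of determinant 23
-/

set_option autoImplicit false

namespace CfsgLib.Feit23

open Matrix Module

attribute [-simp] zsmul_eq_mul natCast_zsmul

variable {G : Type*} [Group G]

theorem cop23 {ℓ : ℕ} (hℓ : ℓ.Prime) (h : ℓ ≠ 23) : IsCoprime (ℓ : ℤ) 23 :=
  Nat.isCoprime_iff_coprime (n := 23).2 ((Nat.coprime_primes hℓ (by norm_num)).2 h)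

theorem prime23 : Prime (23 : ℤ) := Int.prime_iff_natAbs_prime.2 (by norm_num)

namespace St

variable (S : St G)

theorem rad' {ℓ : ℕ} (hℓ : ℓ.Prime) (h : ℓ ≠ 23) {x : L} (hx : ∀ y, (ℓ : ℤ) ∣ S.β x y) :
    ∃ (c : ℤ) (z : L), x = c • S.v + (ℓ : ℤ) • z := by
  obtain ⟨z, hz⟩ := S.rad ℓ hℓ h x hx
  obtain ⟨y, hy⟩ := S.mem_of_sub (x := x) (K := LinearMap.range ((ℓ : ℤ) • LinearMap.id))
    fun i => ⟨S.ρ (S.σ ^ i) z, by rw [pow_succ, S.act_mul, ← map_sub, hz]; simp⟩
  obtain ⟨a, b, e⟩ := cop23 hℓ h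
  simp only [LinearMap.smul_apply, LinearMap.id_apply] at hy
  exact ⟨b * S.k x, a • x + b • y, by linear_combination (norm := module) (-b) • hy - e • x⟩

theorem par (x : L) : 2 ∣ S.β x x + S.d * S.k x ^ 2 := by
  let K : Submodule ℤ L :=
    { carrier := {x | 2 ∣ S.β x x}
      add_mem' := fun {a b} ha hb => by
        simp only [Set.mem_setOf_eq, S.norm_add] at *; omega
      zero_mem' := by simp
      smul_mem' := fun c x hx => by
        simpa [mul_comm c] using (Dvd.dvd.mul_right (Dvd.dvd.mul_right hx c) c) }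
  have h : 2 ∣ S.β _ _ := S.mem_of_sub (K := K) (x := x) fun i => show 2 ∣ S.β _ _ by
    rw [S.norm_sub, S.inv, S.inv]; omega
  simp only [S.norm_sub, map_smul, LinearMap.smul_apply, smul_eq_mul, S.bv, S.kv] at h
  obtain ⟨c, hc⟩ := h
  exact ⟨c - 264 * S.β x x + 12 * S.d * S.k x ^ 2, by linear_combination hc⟩

theorem d23 : ¬ 23 ∣ S.d := fun h => by
  obtain ⟨z, hz⟩ := S.rad23 S.v fun y => by rw [S.symm, S.bv]; exact h.mul_left _
  exact S.not_smul (ℓ := 23) (by norm_num) z hz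

theorem sum_β (x : L) : ∑ i, S.β x (S.o x i) = S.d * S.k x ^ 2 := by
  rw [← map_sum, sum_o, map_smul, S.bv, smul_eq_mul]; ring

theorem key (x : L) : (∃ c : ℤ, x = c • S.v) ∨ 44 + S.d * S.k x ^ 2 ≤ 23 * S.β x x := by
  refine or_iff_not_imp_left.2 fun h => ?_
  have := Finset.sum_le_sum (s := Finset.univ) (f := fun i => S.β x (S.o x i))
    (g := fun i => S.β x x - 2 + if i = 0 then 2 else 0) fun i _ => by
      split_ifs with hi
      · simp [hi, o_zero]
      have a := S.pos _ (sub_ne_zero.2 fun e => h (S.o_fix hi e.symm))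
      have b := S.no_root (x - S.o x i)
      rw [S.norm_sub, o, S.inv, ← o] at a b
      omega
  simp [sum_β, Finset.sum_add_distrib] at this
  linarith

end St

/-- the dual of an even lattice of determinant 23, with a gluing -/
structure Gl (d : ℤ) (m : ℕ) where
  F : LinearMap.BilinForm ℤ (Fin (m + 1) → ℤ)
  A : LinearMap.BilinForm ℤ (Fin (m + 1) → ℤ)
  C : Matrix (Fin (m + 1)) (Fin (m + 1)) ℤ
  t : ℤ
  symm : ∀ y z, F y z = F z y
  hF : ∀ y z, 23 * F y z = A y z - d * (t * y 0) * (t * z 0)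
  ht : ¬ 23 ∣ t
  nonneg : ∀ y, 0 ≤ A y y
  even : ∀ y, 2 ∣ A y y
  hC : ∀ y i, 23 * y i = ∑ j, C i j * A y (Pi.single j 1)
  hC0 : ∀ i, 23 ∣ C i 0

namespace Gl

variable {m : ℕ} {S : St G} (g : Gl S.d m)

theorem pos {y : Fin (m + 1) → ℤ} (h : g.A y y ≤ 0) : y = 0 := by
  have h1 : ∀ z, g.A y z = 0 := fun z => by
    have a := g.nonneg ((-(g.A z z + 1) * g.A y z) • y + z)
    have b : g.A z y = g.A y z := by linear_combination g.hF y z - g.hF z y + 23 * g.symm z y
    simp only [map_add, map_smul, LinearMap.add_apply, LinearMap.smul_apply, smul_eq_mul, b,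
      le_antisymm h (g.nonneg y)] at a
    by_contra h0
    nlinarith [g.nonneg z, mul_self_pos.2 h0]
  funext i
  simpa [h1] using g.hC y i

/-- the glued lattice -/
def N : Submodule ℤ (L × (Fin (m + 1) → ℤ)) :=
  LinearMap.ker (S.k ∘ₗ LinearMap.fst _ _ _ - g.t • LinearMap.proj 0 ∘ₗ LinearMap.snd _ _ _)

theorem mem_N {p : L × (Fin (m + 1) → ℤ)} : p ∈ g.N ↔ S.k p.1 = g.t * p.2 0 := by
  simp [N, sub_eq_zero]

theorem k_eq (p : g.N) : S.k p.1.1 = g.t * p.1.2 0 := g.mem_N.1 p.2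

/-- elements of the glued lattice -/
def mk' (x : L) (y : Fin (m + 1) → ℤ) (h : S.k x = g.t * y 0) : g.N := ⟨(x, y), g.mem_N.2 h⟩

theorem finrank_N : finrank ℤ g.N = 23 + m := by
  have h := Submodule.finrank_quotient_add_finrank g.N
  rw [N, (LinearMap.quotKerEquivOfSurjective _ fun c => ⟨(c • S.x0, 0), by simp [S.kx0]⟩).finrank_eq] at h
  simp at h
  rw [N]
  omega

/-- the glued form -/
def γ : LinearMap.BilinForm ℤ g.N :=
  (S.β.comp (LinearMap.fst _ _ _) (LinearMap.fst _ _ _) +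
    g.F.comp (LinearMap.snd _ _ _) (LinearMap.snd _ _ _)).comp g.N.subtype g.N.subtype

theorem γ_apply (p q : g.N) : g.γ p q = S.β p.1.1 q.1.1 + g.F p.1.2 q.1.2 := rfl

theorem γ23 (p : g.N) :
    23 * g.γ p p = 23 * S.β p.1.1 p.1.1 - S.d * S.k p.1.1 ^ 2 + g.A p.1.2 p.1.2 := by
  rw [γ_apply, k_eq]; linear_combination g.hF p.1.2 p.1.2

theorem eUni : EUni g.γ where
  symm p q := by rw [γ_apply, γ_apply, S.symm, g.symm]
  pos p hp := by
    have a := g.γ23 p
    have b := S.k_le p.1.1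
    have c := g.nonneg p.1.2
    by_contra h
    have e := g.pos (y := p.1.2) (by linarith)
    have f := g.k_eq p
    rw [γ_apply, e, map_zero, add_zero] at h
    exact h (S.pos _ fun h0 => hp (Subtype.ext (Prod.ext h0 e)))
  even p := by
    have a := g.γ23 p
    have b := S.par p.1.1
    have c := g.even p.1.2
    omega
  rad ℓ hℓ p hp := by
    obtain ⟨⟨x, y⟩, hk⟩ := p
    replace hk : S.k x = g.t * y 0 := g.mem_N.1 hk
    replace hp : ∀ x' y', S.k x' = g.t * y' 0 → (ℓ : ℤ) ∣ S.β x x' + g.F y y' :=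
      fun x' y' h => hp (g.mk' x' y' h)
    have h0 : (ℓ : ℤ) ≠ 0 := by exact_mod_cast hℓ.ne_zero
    suffices (∃ z, x = (ℓ : ℤ) • z) ∧ ∀ i, (ℓ : ℤ) ∣ y i by
      obtain ⟨⟨z, rfl⟩, h⟩ := this
      choose w hw using h
      exact ⟨g.mk' z w (mul_left_cancel₀ h0 (by simpa [hw, mul_left_comm g.t] using hk)),
        Subtype.ext (Prod.ext rfl (funext hw))⟩
    rcases eq_or_ne ℓ 23 with rfl | h23
    · obtain ⟨c, c', hc⟩ := (prime23.coprime_iff_not_dvd.2 S.d23).symm
      obtain ⟨z, hz⟩ := S.rad23 (x - (S.β x S.x0 * c) • S.v) fun w => by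
        obtain ⟨e, he⟩ := hp (w - S.k w • S.x0) 0 (by simp [S.kx0])
        simp only [map_sub, map_smul, LinearMap.sub_apply, LinearMap.smul_apply, smul_eq_mul,
          S.symm S.v, S.bv, map_zero, Nat.cast_ofNat] at he ⊢
        exact ⟨e + c' * S.k w * S.β x S.x0, by linear_combination he - S.k w * S.β x S.x0 * hc⟩
      generalize S.β x S.x0 * c = c at hz
      obtain rfl := eq_add_of_sub_eq hz
      simp only [map_add, map_smul, smul_eq_mul, S.kv] at hk
      have h1 : 23 ∣ y 0 := (prime23.dvd_or_dvd ⟨S.k z + c, by linarith⟩).resolve_left g.ht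
      have h2 : ∀ i, 23 ∣ y i := fun i => by
        refine (mul_dvd_mul_iff_left (a := 23) (by norm_num)).1 ?_
        rw [g.hC, Fin.sum_univ_succ]
        refine dvd_add (mul_dvd_mul (g.hC0 i) ?_) (Finset.dvd_sum fun j _ => Dvd.dvd.mul_left ?_ _)
        · obtain ⟨e, he⟩ := h1
          have a := g.hF y (Pi.single 0 1)
          rw [he, Pi.single_eq_same] at a
          exact ⟨g.F y (Pi.single 0 1) + S.d * g.t * e * g.t, by linear_combination -a⟩
        · have a := g.hF y (Pi.single j.succ 1)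
          have b := hp 0 (Pi.single j.succ 1) (by simp)
          simp only [map_zero, zero_add, Pi.single_eq_of_ne (Fin.succ_ne_zero j).symm, mul_zero,
            sub_zero] at a b
          exact a ▸ mul_dvd_mul_left _ b
      choose w hw using h2
      obtain rfl : y = (23 : ℤ) • w := funext hw
      have h3 := hp (g.t • S.x0) (Pi.single 0 1) (by simp [S.kx0])
      simp only [map_add, map_smul, LinearMap.add_apply, LinearMap.smul_apply, smul_eq_mul,
        S.symm S.v, S.bv, S.kx0, Nat.cast_ofNat] at h3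
      obtain ⟨e, rfl⟩ : 23 ∣ c := ((prime23.dvd_or_dvd ((prime23.dvd_or_dvd (show 23 ∣ g.t * (c * S.d) by
        obtain ⟨e, he⟩ := h3
        exact ⟨e - g.t * S.β z S.x0 - g.F w (Pi.single 0 1), by linear_combination he⟩)).resolve_left
          g.ht)).resolve_right S.d23)
      exact ⟨⟨z + e • S.v, by simp [mul_smul]⟩, fun i => ⟨w i, rfl⟩⟩
    · have hc := cop23 hℓ h23
      have h1 : ∀ i, (ℓ : ℤ) ∣ y i := fun i => hc.dvd_of_dvd_mul_left (by
        rw [g.hC]
        refine Finset.dvd_sum fun j _ => Dvd.dvd.mul_left ?_ _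
        have := hp ((g.t * (Pi.single j 1 : _ → ℤ) 0) • S.v) ((23 : ℤ) • Pi.single j 1) (by
          simp only [map_smul, S.kv, smul_eq_mul, Pi.smul_apply]; ring)
        simp only [map_smul, smul_eq_mul, g.hF, S.bv, hk] at this
        exact (congrArg _ (by ring)).mp this)
      obtain ⟨c, z, hz⟩ := S.rad' hℓ h23 (x := (23 : ℤ) • x - S.k x • S.v) fun w => by
        have := hp ((23 : ℤ) • w - S.k w • S.v) 0 (by simp [S.kv, mul_comm])
        simp only [map_sub, map_smul, LinearMap.sub_apply, LinearMap.smul_apply, smul_eq_mul,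
          S.symm S.v, S.bv, map_zero] at this ⊢
        convert this using 1
        ring
      have h2 := congrArg S.k hz
      simp only [map_sub, map_add, map_smul, smul_eq_mul, S.kv] at h2
      obtain ⟨e, rfl⟩ : (ℓ : ℤ) ∣ c := hc.dvd_of_dvd_mul_left ⟨-S.k z, by linarith⟩
      obtain ⟨e', he⟩ := h1 0
      obtain ⟨a, b, hab⟩ := hc
      rw [hk, he] at hz
      exact ⟨⟨a • x + b • (z + (e + g.t * e') • S.v), by
        linear_combination (norm := module) b • hz - hab • x⟩, h1⟩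

theorem no_root (h4 : ∀ y, g.A y y ≠ 2) (h46 : ∀ y, 23 ∣ y 0 → g.A y y ≠ 46) (p : g.N) :
    g.γ p p ≠ 2 := fun h => by
  have a := h ▸ g.γ23 p
  have b := g.k_eq p
  rcases S.key p.1.1 with ⟨c, hc⟩ | hc
  · simp only [hc, map_smul, LinearMap.smul_apply, smul_eq_mul, S.βv, S.kv] at a b
    exact h46 _ ((prime23.dvd_or_dvd ⟨c, by linarith⟩).resolve_left g.ht) (by linarith)
  · have c := h4 p.1.2
    have d := g.even p.1.2
    rw [γ_apply, g.pos (y := p.1.2) (by omega), map_zero, add_zero] at h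
    exact S.no_root _ h

end Gl

end CfsgLib.Feit23
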